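import Cfsg.Agent.H28.ZN
import Cfsg.Agent.H28.Amal3
import Cfsg.Agent.H9.Qd

/-!
Primitive pairs of characteristic `p` (Kurzweil-Stellmacher 10.1.4, 10.1.5).
-/

set_option autoImplicit false

open Cfsg Subgroup H9
open scoped Pointwise commutatorElement MatrixGroups

namespace H28

variable {G : Type*} [Group G] {p : ℕ}

/-- one half of a primitive pair of characteristic `p` -/
structure HPP (p : ℕ) (P R : Subgroup G) : Prop where
  ne : P ≠ R
  char : IsCharP p P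
  le : pCoreOf p P ≤ R
  prim : ∀ A : Subgroup G, A ≠ ⊥ → A ≤ P → A ≤ R → P ≤ 𝐍 A → R ⊓ 𝐍 A ≤ P

theorem HPP.conj {P R : Subgroup G} (h : HPP p P R) (g : G) : HPP p (cj g P) (cj g R) where
  ne := fun e => h.ne (cj_inj.1 e)
  char := h.char.conj g
  le := by rw [← cj_pCoreOf]; exact cj_mono g h.le
  prim := fun A h0 h1 h2 h3 => by
    have := h.prim (cj g⁻¹ A) (mt cj_eq_bot.1 h0) (le_cj_iff.1 h1) (le_cj_iff.1 h2)
      (by rw [← cj_normalizer]; exact cj_le_iff.1 h3)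
    rw [← cj_normalizer] at this
    simpa only [cj_inf, cj_cj_inv] using cj_mono g this

variable [Finite G] [Fact p.Prime]

theorem le_pCoreOf_of_pMod {H R D C A : Subgroup G} (hD : D ≤ H) (hn : H ≤ 𝐍 D)
    (hC : PMod p D C) (hCR : D ⊓ C ≤ R) (hAD : A ≤ D) (hA : A ≤ pCoreOf p R) :
    A ≤ pCoreOf p H := by
  set Q := pCoreOf p H
  set E := pResidualOf p D
  have nQ : H ≤ 𝐍 Q := le_normalizer_pCoreOf p H
  have nE : H ≤ 𝐍 E := le_normalizer_pResidualOf' hn
  have ED : E ≤ D := pResidualOf_le p D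
  have ER : E ≤ 𝐍 (pCoreOf p R) :=
    ((le_inf ED hC.pResidualOf_le).trans hCR).trans (le_normalizer_pCoreOf p R)
  have h1 : ⁅E, A⁆ ≤ Q := (le_inf (commutator_le_of_le_normalizer ((hAD.trans hD).trans nE))
    ((commutator_mono le_rfl hA).trans (commutator_le_of_le_normalizer' ER))).trans
    ((le_pCoreOf ((isPGroup_pCoreOf p R).to_le inf_le_right) inf_le_left
      (le_normalizer_inf le_normalizer ER)).trans (pCoreOf_le_of_normal (ED.trans hD) nE))
  set F := D ⊓ Cz Q E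
  have FH : F ≤ H := inf_le_left.trans hD
  have nF : H ≤ 𝐍 F := le_normalizer_inf hn (le_normalizer_Cz nQ nE)
  obtain ⟨T, hT, hAT⟩ := exists_isSylowIn_ge ((isPGroup_pCoreOf p R).to_le hA)
    (le_inf hAD (le_Cz.2 ⟨(hAD.trans hD).trans nQ, h1⟩) : A ≤ F)
  have h2 : F ≤ 𝐍 (T ⊔ Q) := hT.pResidualOf_sup.ge.trans (sup_le
    (le_normalizer_sup_of_commutator_le (((pResidualOf_le p F).trans FH).trans nQ)
      ((comm_comm _ _).le.trans ((commutator_mono (pResidualOf_mono inf_le_left)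
        (hT.le.trans inf_le_right)).trans (commutator_Cz_le Q E))))
    (le_normalizer_of_le le_sup_left))
  exact (hAT.trans le_sup_left).trans ((le_pCoreOf (isPGroup_sup_of_le_normalizer hT.isPGroup
    (isPGroup_pCoreOf p H) ((hT.le.trans FH).trans nQ)) (sup_le_sup_right hT.le Q)
    (sup_le h2 (le_normalizer_of_le le_sup_right))).trans (pCoreOf_le_of_normal
      (sup_le FH (pCoreOf_le p H)) (le_normalizer_sup nF nQ)))

/-- KS 10.1.4/10.1.5 -/
theorem involves_SL2_of_primitive (hp : p ≠ 2) {M₁ M₂ : Subgroup G} (h1 : HPP p M₁ M₂)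
    (h2 : HPP p M₂ M₁) : H9.Involves M₁ SL(2, ZMod p) ∨ H9.Involves M₂ SL(2, ZMod p) := by
  by_contra! hs
  let Γ : SimpleGraph (Subgroup G) :=
    { Adj := fun P R => ∃ g, (P = cj g M₁ ∧ R = cj g M₂) ∨ (P = cj g M₂ ∧ R = cj g M₁)
      symm := ⟨fun P R ⟨g, h⟩ => ⟨g, h.symm.imp And.symm And.symm⟩⟩
      loopless := ⟨fun P ⟨g, h⟩ => h1.ne (cj_inj.1 (h.elim (fun a => a.1.symm.trans a.2)
        fun a => a.2.symm.trans a.1))⟩ }
  have pp : ∀ {P R}, Γ.Adj P R → HPP p P R := by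
    rintro P R ⟨g, ⟨rfl, rfl⟩ | ⟨rfl, rfl⟩⟩
    exacts [h1.conj g, h2.conj g]
  have st : ∀ {P R}, Γ.Adj P R → ∀ V A : Subgroup G, IsPGroup p V → P ≤ 𝐍 V → A ≤ P → A ≤ 𝐂 A → V ≤ 𝐍 A →
      StabAt p P V A := by
    intro P R e V A a b c d f
    refine stabAt_of_not_involves_SL2 hp (fun i => ?_) a b c (H28.commutator_eq_bot_iff.2
      ((commutator_le_of_le_normalizer' f).trans d))
    obtain ⟨g, ⟨rfl, rfl⟩ | ⟨rfl, rfl⟩⟩ := e
    exacts [hs.1 (i.of_map _), hs.2 (i.of_map _)]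
  have sm : ∀ (g : G) {P R}, Γ.Adj P R → Γ.Adj (cj g P) (cj g R) := by
    rintro g P R ⟨k, ⟨rfl, rfl⟩ | ⟨rfl, rfl⟩⟩
    exacts [⟨g * k, Or.inl ⟨cj_cj _ _ _, cj_cj _ _ _⟩⟩, ⟨g * k, Or.inr ⟨cj_cj _ _ _, cj_cj _ _ _⟩⟩]
  have y := fun P : Subgroup G => isPRed_Y p P
  have a1 : ∀ {P R}, Γ.Adj P R → largestPReducedOf p R ≤ pCoreOf p P := fun {P R} e =>
    (st e _ _ (isPGroup_pCoreOf p P) (le_normalizer_pCoreOf p P)
      ((y R).le_pCoreOf.trans (pp e.symm).le) (ea_le_centralizer (y R).ea)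
      ((pp e).le.trans (y R).norm)).le_pCoreOf ((isPGroup_pCoreOf p P).to_le (pp e).char)
  let V : Subgroup G → Subgroup G := fun P => ⨆ R : Γ.neighborSet P, largestPReducedOf p R
  have v1 : ∀ {P R}, Γ.Adj P R → largestPReducedOf p R ≤ V P := fun {P R} e =>
    le_iSup (fun R : Γ.neighborSet P => largestPReducedOf p (R : Subgroup G)) ⟨R, e⟩
  have v2 : ∀ P, V P ≤ pCoreOf p P := fun P => iSup_le fun R => a1 R.2
  have v3 : ∀ P, IsElementaryAbelian p (V P) := fun P => ea_iSup (fun R => (y _).ea) fun R T =>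
    (st T.2.symm _ _ (y _).isPGroup (y _).norm ((a1 R.2).trans (pp T.2).le)
      (ea_le_centralizer (y _).ea) (((a1 T.2).trans (pp R.2).le).trans (y _).norm)).le_centralizer
      (y _).red
  have v4 : ∀ g P, cj g (V P) ≤ V (cj g P) := fun g P => by
    rw [cj_iSup]
    exact iSup_le fun R => (cj_Y g _).le.trans (v1 (sm g R.2))
  have v5 : ∀ P, P ≤ 𝐍 (V P) := fun P => le_normalizer_of_cj_le fun g hg =>
    (v4 g P).trans (by rw [cj_eq_self_of_mem hg])
  have nb : ∀ {P R}, Γ.Adj P R → largestPReducedOf p P ≠ ⊥ := fun {P R} e =>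
    (pp e).char.Y_ne_bot fun f => (pp e).ne (by
      subst f
      by_contra g
      exact (pp e.symm).char.pCoreOf_ne_bot (Ne.symm g) (eq_bot_iff.2 (pp e.symm).le))
  have v6 : ∀ {P R}, Γ.Adj P R → P ⊓ 𝐂 (V P) ≤ R := fun {P R} e =>
    (inf_le_inf_left _ ((centralizer_anti (v1 e)).trans (centralizer_le_normalizer _))).trans
      ((pp e.symm).prim _ (nb e.symm) (y R).le ((a1 e).trans (pCoreOf_le p P)) (y R).norm)
  have key : ∀ n P R (w : Γ.Walk P R), w.length = n → V P ≤ pCoreOf p R := by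
    intro n
    induction n with
    | zero => intro P R w hw; exact SimpleGraph.Walk.eq_of_length_eq_zero hw ▸ v2 P
    | succ n ih =>
      intro P R w hw
      have k : ∀ P R (w : Γ.Walk P R), w.length = n + 1 → ∃ T, Γ.Adj P T ∧ V R ≤ pCoreOf p T := by
        intro P R w hw
        cases w with
        | nil => simp at hw
        | cons e w => exact ⟨_, e, ih _ _ w.reverse (by simpa using hw)⟩
      obtain ⟨T, e, a⟩ := k P R w hw
      obtain ⟨T', e', b⟩ := k R P w.reverse (by simpa using hw)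
      obtain ⟨D, d1, d2, d3, d4⟩ := st e' _ _ (ea_isPGroup (v3 R)) (v5 R)
        (b.trans (pp e'.symm).le) (ea_le_centralizer (v3 P)) ((a.trans (pp e.symm).le).trans (v5 P))
      exact le_pCoreOf_of_pMod d2 d3 d4 ((inf_le_inf_right _ d2).trans (v6 e')) d1 b
  have e : Γ.Adj M₁ M₂ := ⟨1, Or.inl ⟨(cj_one _).symm, (cj_one _).symm⟩⟩
  let U : Subgroup G := ⨆ P : {P // Γ.Reachable P M₁}, V P
  have u1 : ∀ P, Γ.Reachable P M₁ → V P ≤ U := fun P r =>
    le_iSup (fun P : {P // Γ.Reachable P M₁} => V P) ⟨P, r⟩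
  have u2 : ∀ R, Γ.Reachable M₁ R → U ≤ R := fun R r => iSup_le fun P =>
    (P.2.trans r).elim fun w => (key _ _ _ w rfl).trans (pCoreOf_le p R)
  have u3 : ∀ g, Γ.Reachable (cj g M₁) M₁ → cj g U ≤ U := fun g r => by
    rw [cj_iSup]
    exact iSup_le fun P => (v4 g P).trans (u1 _ ((P.2.map
      (⟨fun P => cj g P, sm g⟩ : Γ →g Γ)).trans r))
  have n1 : M₁ ≤ 𝐍 U := le_normalizer_of_cj_le fun g hg => u3 g (by rw [cj_eq_self_of_mem hg])
  have n2 : M₂ ≤ 𝐍 U := le_normalizer_of_cj_le fun g hg => u3 g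
    ((sm g e).reachable.trans (by rw [cj_eq_self_of_mem hg]; exact e.symm.reachable))
  have u0 : U ≠ ⊥ := ne_bot_of_le_ne_bot (nb e.symm) ((v1 e).trans (u1 _ (.refl _)))
  exact h1.ne (le_antisymm
    ((le_inf le_rfl n1).trans (h2.prim U u0 (u2 _ e.reachable) (u2 _ (.refl _)) n2))
    ((le_inf le_rfl n2).trans (h1.prim U u0 (u2 _ (.refl _)) (u2 _ e.reachable) n1)))

end H28
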