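import Cfsg.Agent.H28.QL2
import Cfsg.Agent.H14.TwD4
import Cfsg.Agent.H14.TwE6
import Cfsg.Agent.H14.GoodAll
import Cfsg.Agent.H16.E9
import Cfsg.Agent.S0253
import Cfsg.Agent.S0255
import Cfsg.Agent.S1069

/-! The known simple groups all of whose Sylow subgroups of odd order are cyclic. -/

set_option autoImplicit false
set_option maxRecDepth 100000

namespace H28.QL
open Cfsg Subgroup H19 Function H14 H14.RootSys H14.PreSt H14.St Cfsg.Lie

section
variable {ι κ : Type*} [Fintype κ] [DecidableEq κ] [Fintype ι] [DecidableEq ι] {R : RootSys ι κ} {C : Chev R}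
  {K G : Type*} [Field K] [Group G] (S : St C K G)

variable (R) in
/-- strongly orthogonal roots -/
def SO (r s : ι) : Prop := ∀ a ∈ [r, R.neg r], ∀ b ∈ [s, R.neg s], b ≠ R.neg a ∧ ¬ ∃ k, R.cf k = R.cf a + R.cf b

instance decSO (r s : ι) : Decidable (SO R r s) := by unfold SO; infer_instance

/-- product of positive root elements -/
def pp (L : List ι) : G := (L.map fun r => S.x r 1).prod
/-- product of negative root elements -/
def mm (L : List ι) : G := (L.map fun r => S.x (R.neg r) (-1)).prod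

theorem cm {L M : List ι} (h : ∀ r ∈ L, ∀ s ∈ M, SO R r s) : Commute (pp S L) (pp S M) ∧ Commute (pp S L) (mm S M) ∧
    Commute (mm S L) (pp S M) ∧ Commute (mm S L) (mm S M) := by
  refine ⟨?_, ?_, ?_, ?_⟩ <;> refine Commute.list_prod_left _ _ (List.forall_mem_map.2 fun r hr =>
    Commute.list_prod_right _ _ (List.forall_mem_map.2 fun s hs => ?_)) <;>
  exact S.commute_of_not (h r hr s hs _ (by simp) _ (by simp)).1 (h r hr s hs _ (by simp) _ (by simp)).2 _ _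

theorem braid {L : List ι} (h : L.Pairwise (SO R)) : pp S L * mm S L * pp S L = mm S L * pp S L * mm S L := by
  induction L with
  | nil => rfl
  | cons r L ih =>
    obtain ⟨a, b, c, d⟩ := cm S (L := [r]) (M := L) (by simpa using (List.pairwise_cons.1 h).1)
    have e := S.n_neg r (t := -1) (by simp)
    simp only [pp, mm, List.map_cons, List.map_nil, List.prod_cons, List.prod_nil, mul_one, PreSt.n, inv_neg, inv_one,
      _root_.neg_neg, RootSys.neg_neg] at a b c d e ih ⊢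
    rw [c.symm.mul_mul_mul_comm, (a.symm.mul_left b.symm).mul_mul_mul_comm, b.symm.mul_mul_mul_comm,
      (d.symm.mul_left c.symm).mul_mul_mul_comm, e, ih h.of_cons]

theorem pm_ne (hS : S.Sep) {L : List ι} (h : L.Nodup ∧ L ≠ [] ∧ ∀ r ∈ L, R.pos r) : pp S L ≠ mm S L := fun e => by
  obtain ⟨r, hr⟩ := List.exists_mem_of_ne_nil L h.2.1
  have := hS.tri_pos (prod_mem_U h.2.2 fun _ => 1) (v := mm S L) (list_prod_mem (List.forall_mem_map.2 fun r hr =>
    x_mem_U (by simpa [pos_neg_iff] using h.2.2 r hr) _)) (one_mem _) (e.trans (mul_one _).symm)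
  exact one_ne_zero (hS.uniq (htf κ) L h.1 (fun r hr => htf_pos (h.2.2 r hr)) _ (fun _ => 0) (by simpa using this) r hr)

theorem br_st (hS : S.Sep) {H : Subgroup G} (L M : List ι) (h : ((L.Nodup ∧ L ≠ [] ∧ ∀ r ∈ L, R.pos r) ∧ L.Pairwise (SO R)) ∧
    ((M.Nodup ∧ M ≠ [] ∧ ∀ r ∈ M, R.pos r) ∧ M.Pairwise (SO R)) ∧ ∀ r ∈ L, ∀ s ∈ M, SO R r s)
    (m : pp S L ∈ H ∧ mm S L ∈ H ∧ pp S M ∈ H ∧ mm S M ∈ H) : Br H :=
  have ⟨a, b, c, d⟩ := cm S h.2.2
  .sub m.1 m.2.1 m.2.2.1 m.2.2.2 (braid S h.1.2) (braid S h.2.1.2) (pm_ne S hS h.1.1) (pm_ne S hS h.2.1.1) a b c d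
end

variable {F : Type*} [Field F]

theorem br_good {D : ChevalleyDatum} (G : Good D) (a b : Fin D.nroots) (h : G.R.pos a ∧ G.R.pos b ∧ SO G.R a b) :
    Br (D.group F) :=
  (br_st (G.SG F) (G.SG_sep F) (H := ⊤) [a] [b] (by simpa using h) (by simp)).inj (Subgroup.subtype _) Subtype.val_injective

theorem br_tw {D : ChevalleyDatum} {G : Good D} {T : (G.SG F).Tw} {Γ : Subgroup (GL D.Idx F)} (h : Good.IsTw T Γ)
    (b : Br T.fix) : Br Γ :=
  b.inj (((D.group F).subtype.comp T.fix.subtype).codRestrict Γ fun g => h.mem.2 g.2) fun _ _ e =>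
    Subtype.ext (Subtype.ext (congrArg Subtype.val e :))

theorem br_2E6 [Fintype F] {q : ℕ} (hq : IsPrimePow q) (hF : Fintype.card F = q ^ 2) : Br (twistedE6 F q) := by
  obtain ⟨φ, h2, hφ⟩ := E6.exists_hom hq hF
  refine br_tw (E6.isTw (h2 := h2) hφ) (br_st _ (goodE6.SG_sep F) [46] [56, 36] (by decide +kernel) ⟨?_, ?_, ?_, ?_⟩)
  · exact (E6.p1.2 ⟨1, by simp, rfl⟩).2
  · simpa [mm, show goodE6.R.neg 46 = 25 by decide +kernel] using (E6.m1 (h2 := h2).2 ⟨-1, by simp, rfl⟩).2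
  · simpa [pp] using (E6.p0 (h2 := h2).2 ⟨1, rfl⟩).2
  · simpa [mm, show goodE6.R.neg 56 = 15 ∧ goodE6.R.neg 36 = 35 by decide +kernel] using (E6.m0 (h2 := h2).2 ⟨-1, rfl⟩).2

theorem br_3D4 [Fintype F] {q : ℕ} (hq : IsPrimePow q) (hF : Fintype.card F = q ^ 3) : Br (twistedD4 F q) := by
  obtain ⟨φ, h3, hφ⟩ := D4.exists_hom hq hF
  have k : ∀ r t, okgrD4.rho r = r ∧ grD4.gam r = 1 ∧ grD4.ex r = 1 → φ t = t → (goodD4.SG F).x r t ∈ (D4.T φ h3).fix :=
    fun r t h e => by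
      rw [Tw.mem_fix, Tw.σ_x]
      exact congrArg₂ _ h.1 ((goodD4.tw_f _ _ _ _ h.2 t).trans ((congrArg φ (pow_one t)).trans e))
  refine br_tw (D4.isTw (h3 := h3) hφ) (br_st _ (goodD4.SG_sep F) [23] [18, 13, 12] (by decide +kernel) ⟨?_, ?_, ?_, ?_⟩)
  · simpa [pp] using k 23 1 (by decide +kernel) (by simp)
  · simpa [mm] using k (goodD4.R.neg 23) (-1) (by decide +kernel) (by simp)
  · simpa [pp] using (D4.p0 (h3 := h3).2 ⟨1, rfl⟩).2
  · simpa [mm, show goodD4.R.neg 18 = 5 ∧ goodD4.R.neg 13 = 10 ∧ goodD4.R.neg 12 = 11 by decide +kernel] using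
      (D4.m0 (h3 := h3).2 ⟨-1, rfl⟩).2

theorem br_G2 : Br (chevG2.group F) := br_good goodG2 7 11 (by decide +kernel)
theorem br_F4 : Br (chevF4.group F) := br_good goodF4 33 24 (by decide +kernel)
theorem br_E6 : Br (chevE6.group F) := br_good goodE6 56 36 (by decide +kernel)
theorem br_E7 : Br (chevE7.group F) := br_good goodE7 (goodE7.R.simple ⟨0, by decide⟩) (goodE7.R.simple ⟨1, by decide⟩) (by decide +kernel)
theorem br_E8 : Br (chevE8.group F) := br_good goodE8 (goodE8.R.simple ⟨0, by decide⟩) (goodE8.R.simple ⟨1, by decide⟩) (by decide +kernel)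

theorem ree [Fintype F] {m : ℕ} (hm : 1 ≤ m) (hF : Fintype.card F = 3 ^ (2 * m + 1)) (h : AC (twistedG2 F (3 ^ m))) : False := by
  have : CharP F 3 := charP_of_card_eq_prime_pow (p := 3) hF
  refine h.unip ((Units.coeHom _).comp (Subgroup.subtype _)) (Units.val_injective.comp Subtype.val_injective) (.id _)
    surjective_id Nat.prime_three (by decide) (k := 3) (by decide +kernel) ?_
  rw [Cfsg.Agent.S1069.result hF, ← pow_mul]
  exact ((pow_dvd_pow 3 (by omega)).mul_right _).mul_right _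

variable {X : Type*} [Group X]

/-- the groups `L₂(2ⁿ)`, `Sz(2ⁿ)`, `L₂(p)`, `J₁` -/
def Lst (X : Type*) [Group X] : Prop :=
  (∃ (F : Type) (_ : Field F) (_ : Fintype F), 4 ≤ Fintype.card F ∧ (CharP F 2 ∨ (Fintype.card F).Prime) ∧
    Nonempty (X ≃* Matrix.ProjectiveSpecialLinearGroup (Fin 2) F)) ∨ IsoSuzuki X ∨ Spor.IsoJ1 X

theorem Lst.weak (h : Lst X) :
    (∃ (F : Type) (_ : Field F) (_ : Fintype F), CharP F 2 ∧ Nonempty (X ≃* Matrix.ProjectiveSpecialLinearGroup (Fin 2) F)) ∨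
    IsoSuzuki X ∨ (∃ (F : Type) (_ : Field F) (_ : Fintype F), (Fintype.card F).Prime ∧ Fintype.card F ≠ 2 ∧
      Nonempty (X ≃* Matrix.ProjectiveSpecialLinearGroup (Fin 2) F)) ∨ Spor.IsoJ1 X := by
  rcases h with ⟨F, _, _, a, b | b, e⟩ | h | h
  exacts [.inl ⟨F, _, ‹_›, b, e⟩, .inr (.inr (.inl ⟨F, _, _, b, by omega, e⟩)), .inr (.inl h), .inr (.inr (.inr h))]

variable [Finite X] (h : AC X)
include h

theorem AC.br' {Y : Type*} [Group Y] (e : X ≃* Y) (b : Br Y) : False := h.br (b.inj e.symm.toMonoidHom e.symm.injective)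

theorem AC.e9 (b : H16.Nine.E9 X) : False :=
  have ⟨_, _, h1, h2, h3, h4, h5⟩ := b
  h5 (h.e2 Nat.prime_three (by decide) h1 h2 h3 h4)

theorem AC.psl (k : IsPSL X) : Lst X := by
  obtain ⟨F, _, _, n, h2, h4, ⟨e⟩⟩ := k
  obtain ⟨p, _, ⟨f, f0⟩, hp, hF⟩ := FiniteField.card' F
  simp only [PNat.mk_coe] at hF
  by_cases n4 : 4 ≤ n
  · exact (h.br' e (br_sl n4).quot).elim
  obtain rfl | rfl : n = 2 ∨ n = 3 := by omega
  · by_cases p2 : p = 2
    · exact .inl ⟨F, _, _, h4 rfl, .inl (p2 ▸ ‹_›), ⟨e⟩⟩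
    by_cases f1 : f = 1
    · exact .inl ⟨F, _, _, h4 rfl, .inr (by simpa [hF, f1]), ⟨e⟩⟩
    exact (psl2_unip hp p2 (hF ▸ pow_dvd_pow p (by omega)) (h.congr e)).elim
  by_cases p2 : p = 2
  swap
  · exact (psl3_unip hp p2 (h.congr e)).elim
  subst p2
  by_cases f1 : f = 1
  · have := Fact.mk (show Nat.Prime 7 by decide)
    obtain ⟨k⟩ := Cfsg.Agent.S0255.result (F := ZMod 7) (K := F) (ZMod.card 7) (by simp [hF, f1])
    exact .inl ⟨ZMod 7, _, inferInstance, by simp, .inr (by simpa using this.1), ⟨e.trans k.symm⟩⟩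
  have : 2 ^ 2 ≤ 2 ^ f := Nat.pow_le_pow_right two_pos (by omega)
  obtain ⟨r, hr, d⟩ := Nat.exists_prime_and_dvd (show Fintype.card F - 1 ≠ 1 by omega)
  refine (psl_tor le_rfl hr ?_ d (h.congr e)).elim
  rintro rfl
  exact not_dvd_pred hr (hF ▸ dvd_pow_self 2 f0.ne') Fintype.card_ne_zero d

theorem AC.psu (k : IsPSU X) : False := by
  obtain ⟨F, _, _, n, q, hF, h3, -, ⟨e⟩⟩ := k
  obtain ⟨p, f, hp, _, f0, rfl⟩ := H11.exists_prime_pow_of_card_sq hF
  by_cases p2 : p = 2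
  swap
  · exact psu_unip hF h3 hp p2 (dvd_pow_self p f0.ne') (h.congr e)
  subst p2
  obtain ⟨r, hr, d⟩ := Nat.exists_prime_and_dvd (show 2 ^ f + 1 ≠ 1 by simp)
  refine psu_tor hF h3 hr ?_ d (h.congr e)
  rintro rfl
  simpa using (Nat.dvd_add_right (dvd_pow_self 2 f0.ne')).1 d

theorem AC.lst (hn : ¬ IsMulCommutative X) (k : IsKnownSimple' X) : Lst X := by
  rcases k with k | ⟨n, h5, ⟨e⟩⟩ | k | ⟨F, _, _, m, a, -, ⟨e⟩⟩ | k | ⟨F, _, _, m, a, b, ⟨e⟩⟩ | ⟨F, _, _, m, a, ⟨e⟩⟩ |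
    ⟨F, _, _, m, a, b, c, d, ⟨e⟩⟩ | k | k
  · have : Fact (Nat.card X).Prime := ⟨k⟩
    exact (hn (isCyclic_of_prime_card (p := Nat.card X) rfl).isMulCommutative).elim
  · rcases h5.eq_or_lt with rfl | h6
    · have := Fact.mk Nat.prime_five
      obtain ⟨k⟩ := Cfsg.Agent.S0253.result (F := ZMod 5) (ZMod.card 5)
      exact .inl ⟨ZMod 5, _, inferInstance, by simp, .inr (by simpa using this.1), ⟨e.trans k.symm⟩⟩
    exact (alt h6 (h.congr e)).elim
  · exact h.psl k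
  · exact (h.br' e (br_sp a)).elim
  · exact (h.psu k).elim
  · exact (h.br' e (br_odd (fun z => Nat.not_even_iff_odd.2 b (Nat.even_iff.2 (FiniteField.even_card_iff_char_two.1
      (CharP.ringChar_of_prime_eq_zero Nat.prime_two z)))) (by omega))).elim
  · exact (h.br' e (br_plus (by omega))).elim
  · exact (h.br' e (br_minus (by omega) (H11.disc_ne_zero_of_aniso d))).elim
  · rcases k with ⟨F, _, _, -, ⟨e⟩⟩ | ⟨F, _, _, ⟨e⟩⟩ | ⟨F, _, _, ⟨e⟩⟩ | ⟨F, _, _, ⟨e⟩⟩ | ⟨F, _, _, ⟨e⟩⟩ | ⟨F, _, _, q, a, b, ⟨e⟩⟩ |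
      ⟨F, _, _, q, a, b, ⟨e⟩⟩ | k | ⟨F, _, _, q, a, b, ⟨e⟩⟩ | k | k
    exacts [(h.br' e br_G2).elim, (h.br' e br_F4).elim, (h.br' e br_E6).elim, (h.br' e br_E7).elim, (h.br' e br_E8).elim,
      (h.br' e (br_2E6 a b)).elim, (h.br' e (br_3D4 a b)).elim, .inr (.inl k), (ree a b (h.congr e)).elim,
      (h.e9 (H16.Nine.e9_2F4 k)).elim, (h.e9 (H16.Nine.e9_tits k)).elim]
  · exact .inr (.inr (by_contra fun j => h.e9 (H16.Nine.e9_spor hn k j)))

end H28.QL
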