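import Cfsg.Agent.H26.RB0
import Cfsg.Agent.H8.Dom

/-! S4578: `2`-blocks of the alternating groups and of their double covers. -/

set_option autoImplicit false
open Finset Equiv Function Cfsg H5 H8 H28 H7 H26.RB
open scoped Nat

namespace H28.RB

universe u

section
variable {α : Type*} [DecidableEq α] {u x : Perm α} {a c : α}

theorem swap_BE (hu : ∀ a, u (u a) = a) (a : α) : swap a (u a) ∈ BE u 1 := by
  refine ⟨by rw [mul_swap_eq_swap_mul, hu, swap_comm], by simp, fun b => ?_⟩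
  by_cases h1 : b = a
  · exact ⟨1, by simp [h1]⟩
  by_cases h2 : b = u a
  · exact ⟨1, by simp [h2, hu]⟩
  exact ⟨0, swap_apply_of_ne_of_ne h1 h2⟩

omit [DecidableEq α] in
theorem BE_ap (hu : ∀ a, u (u a) = a) (h : x ∈ BE u 1) (a : α) : x a = a ∨ x a = u a := by
  obtain ⟨k, hk⟩ := h.2.2 a
  rw [hk]
  clear hk
  induction k with
  | zero => simp
  | succ k ih => rw [pow_succ', Perm.mul_apply]; rcases ih with e | e <;> simp [e, hu]

omit [DecidableEq α] in
theorem cm (h : x * u = u * x) (a : α) : x (u a) = u (x a) := congrArg (· a) h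

omit [DecidableEq α] in
theorem BE_cm (hu : ∀ a, u (u a) = a) {e : Perm α} (h : x ∈ BE u 1) (h' : e ∈ BE u 1) :
    x * e = e * x := Equiv.ext fun a => by
  rw [Perm.mul_apply, Perm.mul_apply]
  rcases BE_ap hu h a with e1 | e1 <;> rcases BE_ap hu h' a with e2 | e2 <;>
    simp [e1, e2, cm h.1, cm h'.1, hu]

theorem mem_BE [Fintype α] (hu : ∀ a, u (u a) = a) (h5 : 5 ≤ #u.support) (h1 : x * u = u * x)
    (h2 : x.support ⊆ u.support) (h3 : ∀ a c, u a ≠ a → u c ≠ c →
      x * (swap a (u a) * swap c (u c)) = swap a (u a) * swap c (u c) * x) : x ∈ BE u 1 := by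
  refine ⟨h1, by simp, fun a => by_contra fun h => ?_⟩
  have k0 : x a ≠ a := fun e => h ⟨0, e⟩
  have k1 : x a ≠ u a := fun e => h ⟨1, e⟩
  have k2 : u a ≠ a := Perm.mem_support.1 (h2 (Perm.mem_support.2 k0))
  obtain ⟨c, hc, k3⟩ := exists_mem_notMem_of_card_lt_card (s := {a, u a, x a, u (x a)})
    (t := u.support) (card_le_four.trans_lt (by omega))
  simp only [mem_insert, mem_singleton, not_or] at k3
  have k4 := congrArg (· a) (h3 a c k2 (Perm.mem_support.1 hc))
  simp only [Perm.mul_apply] at k4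
  rw [swap_apply_of_ne_of_ne (Ne.symm k3.1) fun e => k3.2.1 (by rw [e, hu]), swap_apply_left,
    swap_apply_of_ne_of_ne (Ne.symm k3.2.2.1) fun e => k3.2.2.2 (by rw [e, hu]),
    swap_apply_of_ne_of_ne k0 k1] at k4
  exact k2 (x.injective k4)

end

variable {n : ℕ} {H : Type*} [Group H] [Finite H] {π : H →* Perm (Fin n)} {M : Ideal AlgInt}
  {B : Set (IrrCharacter H)} {D : Subgroup H} {χ : IrrCharacter H}

theorem setup (alt : ALT2) (hc : Cov π) (hk : IsPGroup 2 π.ker) (h : Blk 2 M B D χ) :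
    ∃ (E : Subgroup (Perm (Fin n))) (u : Perm (Fin n)) (w : ℕ), (∀ a, u (u a) = a) ∧
      #u.support = 2 * w ∧ (E : Set _) = BE u 1 ∧ Nat.card E ≤ 2 ^ w ∧
      (∀ a c, u a ≠ a → u c ≠ c → ∃ x ∈ D, π x = swap a (u a) * swap c (u c)) ∧
      (∀ x ∈ D, π x * u = u * π x ∧ (π x).support ⊆ u.support) ∧ (w ≤ 1 → D ≤ π.ker) ∧
      (w ≤ 2 → Nat.card (D.map π) ≤ 4) ∧
      (2 ≤ w → ∃ a c, [a, c, u a, u c].Nodup ∧ ∃ g ∈ D, π g = swap a c * swap (u a) (u c)) ∧
      (π.ker = ⊥ → w + (charDegree χ.1).factorization 2 ≤ (n !).factorization 2) := by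
  have := Fact.mk Nat.prime_two
  obtain ⟨hM, hB, hD, hχ⟩ := h
  let f : H →* alternatingGroup (Fin n) := π.codRestrict _ fun x => hc.range.le ⟨x, rfl⟩
  have hf : Surjective f := fun y => by
    obtain ⟨x, hx⟩ := hc.range.ge y.2
    exact ⟨x, Subtype.ext hx⟩
  have hker : f.ker = π.ker := MonoidHom.ker_codRestrict _ _ _
  have hr : RegInj 2 f ⊤ := by
    refine regInj_of_cent ?_ ?_ <;> rw [hker, inf_top_eq]
    exacts [hk, fun x _ _ => Subgroup.mem_centralizer_iff.2 fun y hy =>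
      (Subgroup.mem_center_iff.1 (hc.cen hy) x).symm]
  have hb := isPBlock_dom (hπ := hf) hM hr hB
  obtain ⟨θ, hθ, h1⟩ : ∃ θ ∈ dom f hf B, π.ker = ⊥ → infl f hf θ = χ := by
    by_cases e : π.ker = ⊥
    · obtain ⟨θ, rfl⟩ := exists_infl_eq (f := f) (hf := hf) (χ := χ) (by rw [hker, e]; exact bot_le)
      exact ⟨θ, hχ, fun _ => rfl⟩
    · obtain ⟨θ, hθ⟩ := isPBlock_nonempty hM hb
      exact ⟨θ, hθ, fun e' => (e e').elim⟩
  obtain ⟨P, E, u, w, e1, -, e3, e4, e5, e6, e7, e8, e9, e10, e11, e12⟩ := alt n M _ _ θ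
    ⟨hM, hb, isDefectGroup_dom hM hr hB hD, hθ⟩ (by have := hc.five; omega)
  have k1 : D.map π = (D.map f).map (alternatingGroup (Fin n)).subtype := by
    rw [Subgroup.map_map]; rfl
  have hu2 : u * u = 1 := by
    rw [← sq, Perm.pow_prime_eq_one_iff, e4]
    exact fun _ => Multiset.eq_of_mem_replicate
  have hu : ∀ a, u (u a) = a := fun a => DFunLike.congr_fun hu2 a
  rw [← k1] at e1
  refine ⟨E, u, w, hu, by rw [← Perm.sum_cycleType, e4]; simp [mul_comm], e5, e7,
    fun a c ha hc => e1.ge ⟨e6 (E.mul_mem (e5.ge (swap_BE hu a)) (e5.ge (swap_BE hu c))), by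
      simp [ha.symm, hc.symm]⟩, fun x hx => ?_, fun h => ?_, fun h => ?_, fun h => ?_, fun h => ?_⟩
  · have := (e1.le ⟨x, hx, rfl⟩).1
    exact ⟨e3 _ this, e8 _ this⟩
  · rw [← hker, ← Subgroup.map_eq_bot_iff, e9 h]
  · rw [k1, Subgroup.card_map_of_injective Subtype.val_injective]
    exact e10 h
  · obtain ⟨a, c, k2, k3⟩ := e11 h
    have k4 : a ≠ c := by rintro rfl; simp at k2
    exact ⟨a, c, k2, e1.ge ⟨k3, by simp [k4]⟩⟩
  · rwa [← h1 h, show charDegree (infl f hf θ).1 = charDegree θ.1 by simp [charDegree]]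

theorem p2a (alt : ALT2) (fin : FIN.{u}) (sc : SC.{u}) : P2A.{u} := by
  intro n H _ _ π hc hk M B D χ h
  rw [Subgroup.card_eq_one] at hk
  have hi := π.ker_eq_bot_iff.1 hk
  obtain ⟨E, u, w, hu, e1, e2, e3, e4, e5, -, e6, -, e7⟩ :=
    setup alt hc (hk ▸ IsPGroup.of_bot) h
  obtain hw | hw := le_or_gt w 2
  · exact (fin H 2 M B D χ h).1 (.inl ((Subgroup.card_map_of_injective hi).symm.trans_le (e6 hw)))
  obtain ⟨w, rfl⟩ : ∃ v, w = v + 1 := ⟨w - 1, by omega⟩
  refine (fin H 2 M B D χ h).2 w (sc D 2 w ((E.comap π).subgroupOf D) (fun x => ⟨fun hx e he =>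
    Subtype.ext (hi ?_), fun hx => e2.ge (mem_BE hu (by omega) (e5 _ x.2).1 (e5 _ x.2).2
      fun a c ha hc => ?_)⟩) ?_) ?_
  · simpa using BE_cm hu (e2.le hx) (e2.le he)
  · obtain ⟨y, hy, e⟩ := e4 a c ha hc
    rw [← e, ← map_mul, ← map_mul]
    exact congrArg (fun z : D => π z) (hx ⟨y, hy⟩ (show π y ∈ E from
      e ▸ E.mul_mem (e2.ge (swap_BE hu a)) (e2.ge (swap_BE hu c))))
  · obtain ⟨a, ha⟩ := card_pos.1 (by omega : 0 < #u.support)
    have k1 : Nat.card ((E.comap π).subgroupOf D) ≤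
        Nat.card ((alternatingGroup (Fin n)).subgroupOf E) := Nat.card_le_card_of_injective
      (fun x => ⟨⟨π x.1, x.2⟩, hc.range.le ⟨_, rfl⟩⟩)
      fun x y e => Subtype.ext (Subtype.ext (hi (congrArg (·.1.1) e)))
    have k2 := ((alternatingGroup (Fin n)).subgroupOf E).index_mul_card
    have k3 : 1 < ((alternatingGroup (Fin n)).subgroupOf E).index :=
      Subgroup.one_lt_index_of_ne_top fun e => by
        simpa [Subgroup.mem_subgroupOf, (Perm.mem_support.1 ha).symm] using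
          e.ge (Subgroup.mem_top ⟨_, e2.ge (swap_BE hu a)⟩)
    rw [pow_succ] at e3
    nlinarith
  · have : Nontrivial (Fin n) := Fin.nontrivial_iff_two_le.2 (by have := hc.five; omega)
    have k1 := two_mul_nat_card_alternatingGroup (α := Fin n)
    rw [← hc.range, ← Nat.card_congr (MonoidHom.ofInjective hi).toEquiv, Nat.card_perm,
      Nat.card_eq_fintype_card (α := Fin n), Fintype.card_fin] at k1
    have k2 := e7 hk
    rw [← k1, Nat.factorization_mul two_ne_zero Nat.card_pos.ne', Finsupp.add_apply,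
      Nat.prime_two.factorization_self] at k2
    omega

theorem p2s (alt : ALT2) (spg : SPG) (emb : EMB.{u}) : P2S.{u} := by
  intro n H _ _ π hc hk M B D χ h
  have := Fact.mk Nat.prime_two
  obtain ⟨G, _, _, π', z, τ, hG⟩ := spg n
  obtain ⟨ε, hε⟩ := emb n H π hc hk G π' z hG.ker hG.anti
  have anti : ∀ (x g : H) (a b c d : Fin n), [a, b, c, d].Nodup → π g = swap a b * swap c d →
      (π x a = b ∧ π x b = a ∧ π x c = c ∧ π x d = d) ∨
        (π x a = c ∧ π x c = a ∧ π x b = d ∧ π x d = b) → x * g ≠ g * x :=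
    fun x g a b c d h1 h2 h3 e => hG.anti (ε x) (ε g) a b c d h1 (ε x).2 (by rwa [hε])
      (by rwa [hε]) (by simpa using congrArg (fun y => (ε y : G)) e)
  obtain ⟨E, u, w, hu, e1, -, -, e4, e5, e6, e7, e8, -⟩ :=
    setup alt hc (IsPGroup.of_card (hk.trans (pow_one 2).symm)) h
  obtain hw | hw := le_or_gt w 1
  · exact .inl ((Subgroup.card_le_of_le (e6 hw)).trans (by omega))
  obtain ⟨a, c, k1, g, hg, k2⟩ := e8 hw
  have ha : u a ≠ a := fun e => by simp [e] at k1
  have hc' : u c ≠ c := fun e => by simp [e] at k1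
  have k3 : ¬ IsMulCommutative D := fun hD => by
    obtain ⟨x, hx, e⟩ := e4 a c ha hc'
    refine anti x g _ _ _ _ k1 k2 (.inr ?_)
      (congrArg Subtype.val (mul_comm' (⟨x, hx⟩ : D) ⟨g, hg⟩))
    simp only [List.nodup_cons, List.mem_cons, List.not_mem_nil, or_false, not_or] at k1
    simp only [e, Perm.mul_apply, swap_apply_def]
    grind
  refine .inr ⟨k3, ?_⟩
  obtain hw2 | hw2 := le_or_gt w 2
  · have k4 : Nat.card D ≤ 8 := by
      rw [← (π.ker.subgroupOf D).index_mul_card, ← Subgroup.relIndex, Subgroup.relIndex_ker]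
      exact Nat.mul_le_mul (e7 hw2) ((Nat.card_le_card_of_injective (β := π.ker)
        (fun x : π.ker.subgroupOf D => ⟨x.1, x.2⟩)
        fun x y e => Subtype.ext (Subtype.ext (congrArg (·.1) e))).trans hk.le)
    by_contra! k5
    have k6 := (Subgroup.center D).index_mul_card
    have k7 : (Subgroup.center D).index ≤ 2 := by nlinarith
    have k8 := (Subgroup.center D).index_ne_zero_of_finite
    have : IsCyclic (D ⧸ Subgroup.center D) := isCyclic_of_card_dvd_prime (p := 2) (by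
      rw [← Subgroup.index_eq_card]; interval_cases (Subgroup.center D).index <;> simp_all)
    exact k3 (isMulCommutative_of_isCyclic_quotient_center_self D)
  suffices k : ∀ y : Subgroup.center D, π y.1 = 1 from (Nat.card_le_card_of_injective (β := π.ker)
    (fun y => ⟨y.1, k y⟩) fun x y e => Subtype.ext (Subtype.ext (congrArg (·.1) e))).trans hk.le
  refine fun y => by_contra fun hy => ?_
  have k4 : ∀ x ∈ D, (y.1 : H) * x = x * y.1 := fun x hx =>
    (congrArg Subtype.val (Subgroup.mem_center_iff.1 y.2 ⟨x, hx⟩)).symm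
  obtain ⟨k5, k6⟩ := e5 _ y.1.2
  have k7 := BE_ap hu (mem_BE hu (by omega) k5 k6 fun a c ha hc => by
    obtain ⟨x, hx, e⟩ := e4 a c ha hc
    rw [← e, ← map_mul, k4 x hx, map_mul])
  by_cases k8 : ∀ b, u b ≠ b → π y.1 b = u b
  · exact anti _ g _ _ _ _ k1 k2 (.inr ⟨k8 a ha, by rw [cm k5, k8 a ha, hu], k8 c hc',
      by rw [cm k5, k8 c hc', hu]⟩) (k4 g hg)
  push Not at k8
  obtain ⟨d, hd, k8⟩ := k8
  obtain ⟨b, hb⟩ : ∃ b, π y.1 b ≠ b := not_forall.1 fun e => hy (Equiv.ext e)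
  have k9 := (k7 b).resolve_left hb
  have k10 := (k7 d).resolve_right k8
  obtain ⟨x, hx, e⟩ := e4 b d (k9 ▸ hb) hd
  have k11 := cm k5 b
  have k12 := cm k5 d
  rw [k9, hu] at k11
  rw [k10] at k12
  refine anti _ x _ _ _ _ ?_ e (.inl ⟨k9, k11, k10, k12⟩) (k4 x hx)
  simp only [List.nodup_cons, List.mem_cons, List.not_mem_nil, or_false, not_or]
  grind

end H28.RB
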