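import Cfsg.Agent.H28.ZN2

/-! Sims' theorem in local form: a maximal subgroup of characteristic `2` with dihedral
quotient. -/

set_option autoImplicit false

open Cfsg Subgroup H9
open scoped Pointwise commutatorElement

namespace H28

local notation:max "#" H:max => Nat.card H

variable {G : Type*} [Group G] [Finite G]

theorem sims_index {P T : Subgroup G} {q : ℕ} (hq : q.Prime) (hT : IsSylowIn 2 T P)
    (h : (pCoreOf 2 P).relIndex P = 2 * q) :
    q ≠ 2 ∧ T.relIndex P = q ∧ (pCoreOf 2 P).relIndex T = 2 := by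
  have hO : pCoreOf 2 P ≤ T :=
    hT.le_of_le_normalizer' (isPGroup_pCoreOf 2 P) (pCoreOf_le 2 P)
      (hT.le.trans (le_normalizer_pCoreOf 2 P))
  have m := relIndex_mul_relIndex _ _ _ hO hT.le
  rw [h] at m
  have odd := hT.not_dvd_relIndex
  have c : (T.relIndex P).Coprime 2 :=
    (Nat.coprime_comm.1 ((Nat.Prime.coprime_iff_not_dvd Nat.prime_two).2 odd))
  have d : T.relIndex P ∣ q := c.dvd_of_dvd_mul_left (Dvd.intro_left _ m)
  rcases (Nat.dvd_prime hq).1 d with e | e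
  · exfalso
    have : P ≤ T := relIndex_eq_one.1 e
    have h2 : P ≤ pCoreOf 2 P := le_pCoreOf (hT.isPGroup.to_le this) le_rfl le_normalizer
    rw [relIndex_eq_one.2 h2] at h
    omega
  · refine ⟨fun e2 => odd (by rw [e, e2]), e, ?_⟩
    rw [e] at m
    exact Nat.eq_of_mul_eq_mul_right hq.pos m

theorem sims [IsSimpleGroup G] {P T : Subgroup G} (hP : IsCoatom P) (hc : IsCharP 2 P)
    (hT : IsSylowIn 2 T P) (hN : ¬ 𝐍 T ≤ P) {q : ℕ} (hq : q.Prime)
    (h : (pCoreOf 2 P).relIndex P = 2 * q) :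
    Nonempty (P ≃* Equiv.Perm (Fin 4)) ∨
      Nonempty (P ≃* Multiplicative (ZMod 2) × Equiv.Perm (Fin 4)) := by
  obtain ⟨q2, i1, i2⟩ := sims_index hq hT h
  have hO : pCoreOf 2 P ≤ T :=
    hT.le_of_le_normalizer' (isPGroup_pCoreOf 2 P) (pCoreOf_le 2 P)
      (hT.le.trans (le_normalizer_pCoreOf 2 P))
  have T0 : T ≠ ⊥ := by
    rintro rfl
    rw [relIndex_bot_right] at i2
    omega
  have top : ∀ K : Subgroup G, P ≤ K → ¬ K ≤ P → K = ⊤ := fun K h1 h2 =>
    hP.2 K (lt_of_le_of_ne h1 fun e => h2 e.ge)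
  have bot : ∀ D : Subgroup G, D ≤ P → P ≤ 𝐍 D → ¬ 𝐍 D ≤ P → D = ⊥ := fun D h1 h2 h3 => by
    have : D.Normal := normal_iff_top_le.2 (top _ h2 h3).ge
    rcases this.eq_bot_or_eq_top with e | e
    · exact e
    · exact absurd (top_le_iff.1 (e ▸ h1)) hP.1
  have nc : ¬ P ≤ 𝐂 (omegaOneCenter 2 T) := fun c =>
    omegaOneCenter_ne_bot hT.isPGroup T0 (bot _ ((omegaOneCenter_le _ _).trans hT.le)
      (le_normalizer_of_le_centralizer c)
      fun e => hN ((normalizer_le_normalizer_omegaOneCenter 2 T).trans e))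
  have zl : ZL P := by
    refine ⟨?_, fun T' hT' => ?_⟩
    · have a : Group.IsSolvable (pCore 2 P) := H2.isSolvable_of_isPGroup (isPGroup_pCore 2 P)
      have b : Squarefree (#(P ⧸ pCore 2 P)) := by
        have : #(P ⧸ pCore 2 P) = 2 * q := by
          rw [← h, relIndex, pCoreOf_subgroupOf]; rfl
        rw [this]
        exact (Nat.squarefree_mul ((Nat.coprime_primes Nat.prime_two hq).2 q2.symm)).2
          ⟨Nat.prime_two.prime.squarefree, hq.prime.squarefree⟩
      have := IsZGroup.of_squarefree b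
      exact (Group.isSolvable_iff_subgroup_quotient (pCore 2 P)).2 ⟨a, inferInstance⟩
    · have a : CVL P ≤ T := by
        rcases eq_or_eq_of_relIndex_prime (X := T ⊔ CVL P) (i1 ▸ hq) le_sup_left
          (sup_le hT.le inf_le_left) with e | e
        · exact e ▸ le_sup_right
        · exact absurd (e ▸ sup_le (le_centralizer_omegaOneCenter 2 T)
            (inf_le_right.trans (centralizer_anti (hc.omegaOneCenter_le hT)))) nc
      have b : CVL P ≤ pCoreOf 2 P :=
        le_pCoreOf (hT.isPGroup.to_le a) inf_le_left (le_normalizer_CL P)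
      exact (b.trans (hT'.le_of_le_normalizer' (isPGroup_pCoreOf 2 P) (pCoreOf_le 2 P)
        (hT'.le.trans (le_normalizer_pCoreOf 2 P)))).trans le_normalizer
  have hJ : ¬ JJ 2 T ≤ pCoreOf 2 P := fun c => by
    refine JJ_ne_bot_of_isPGroup hT.isPGroup T0 (bot _ ((JJ_le 2 T).trans hT.le) ?_
      fun e => hN ((normalizer_le_normalizer_JJ 2 T).trans e))
    rw [← JJ_eq_of_le c hO]
    exact (le_normalizer_pCoreOf 2 P).trans (normalizer_le_normalizer_JJ 2 _)
  obtain ⟨K, hK, hKP⟩ := zl.exists_jc' hT hJ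
  have q3 : q = 3 := by
    obtain ⟨x, hx, o, -⟩ := hK.toK3.exists_three
    have d : 3 ∣ #P := o ▸ P.orderOf_dvd_natCard (hKP hx)
    obtain ⟨k, hk⟩ := hT.isPGroup.exists_card_eq
    rw [← card_mul_relIndex hT.le, hk, i1] at d
    have d2 : 3 ∣ q := (Nat.Coprime.pow_right k (by norm_num)).dvd_of_dvd_mul_left d
    exact ((Nat.prime_dvd_prime_iff_eq Nat.prime_three hq).1 d2).symm
  subst q3
  have key : ∀ x ∈ 𝐍 T, x ∉ P → ¬ cj x P ≤ P ∧ P ⊓ cj x P = T := fun x hx hxP => by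
    have a : ¬ cj x P ≤ P := fun c => T0 (eq_bot_iff.2 (hT.le.trans
      (bot P le_rfl le_normalizer fun e => hxP (e (mem_normalizer_of_cj_le c))).le))
    refine ⟨a, ?_⟩
    rcases eq_or_eq_of_relIndex_prime (X := P ⊓ cj x P) (i1 ▸ hq)
      (le_inf hT.le ((cj_eq_self hx).ge.trans (cj_mono x hT.le))) inf_le_left with e | e
    · exact e
    · exact absurd (eq_of_le_of_card_le (inf_eq_left.1 e) (card_cj x P).le).ge a
  have h3 : ∀ x ∈ 𝐍 T, x ∉ P → H3 P (cj x P) := fun x hx hxP => by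
    obtain ⟨-, e⟩ := key x hx hxP
    refine ⟨hc, e ▸ hT.isPGroup, ?_, e ▸ i2, e ▸ nc⟩
    rw [← inf_relIndex_left, e, i1]
  obtain ⟨x, hx, hxP⟩ := SetLike.not_le_iff_exists.1 hN
  have a := h3 x hx hxP
  have b : H3 (cj x P) P := by
    have := (h3 x⁻¹ (inv_mem hx) (fun c => hxP (inv_mem_iff.1 c))).conj x
    rwa [cj_cj_inv] at this
  have c : ∀ N : Subgroup G, N ≤ P → P ≤ 𝐍 N → cj x P ≤ 𝐍 N → N = ⊥ := fun N h1 h2 h3 =>
    bot N h1 h2 fun e => (key x hx hxP).1 (h3.trans e)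
  have c1 := a.c3 b fun N h1 h2 h3 => c N (h1.trans inf_le_left) h2 h3
  have c2 := b.c3 a fun N h1 h2 h3 => c N (h1.trans inf_le_right) h3 h2
  exact (c1.iso c2).imp And.left And.left

end H28
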