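import Cfsg.Agent.H9.QuadPair
import Cfsg.Agent.H28.Core

/-!
Glauberman's theorem on the failure of control by `ZJ`, part 1: an irreducible module for a group
generated by two quadratic elements is a sum of natural modules for a section `SL₂(p)`.
-/

set_option autoImplicit false

open Matrix H9 TensorProduct
open scoped MatrixGroups

namespace H28.ZF

local notation "M₂" K:max => Matrix (Fin 2) (Fin 2) K

theorem trace_two {K : Type*} [Field K] {p : ℕ} [Fact p.Prime] [CharP K p] {g : SL(2, K)} {k : ℕ}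
    (h : g ^ p ^ k = 1) : (g : M₂ K) 0 0 + (g : M₂ K) 1 1 = 2 := by
  have h1 : IsNilpotent ((g : M₂ K) - 1) := ⟨p ^ k, by
    rw [sub_pow_char_pow_of_commute _ _ (Commute.one_right _), one_pow,
      ← Matrix.SpecialLinearGroup.coe_pow, h, Matrix.SpecialLinearGroup.coe_one, sub_self]⟩
  have h2 := (isNilpotent_trace_of_isNilpotent h1).eq_zero
  rw [trace_fin_two] at h2
  simp only [Matrix.sub_apply, one_apply_eq] at h2
  linear_combination h2

theorem unip_mul {K : Type*} [Field K] {p : ℕ} [Fact p.Prime] [CharP K p] {a y : SL(2, K)} {μ : K}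
    {k l : ℕ} (hμ : μ ≠ 0) (ha : (a : M₂ K) = !![1, μ; 0, 1]) (h1 : y ^ p ^ k = 1)
    (h2 : (a * y) ^ p ^ l = 1) : ((a : M₂ K) - 1) * ((y : M₂ K) - 1) = 0 := by
  have t1 := trace_two h1
  have t2 := trace_two h2
  have d := y.det_coe
  rw [det_fin_two] at d
  simp only [Matrix.SpecialLinearGroup.coe_mul, ha, mul_apply, Fin.sum_univ_two, of_apply, cons_val',
    cons_val_zero, cons_val_one, cons_val_fin_one] at t2
  have e1 : (y : M₂ K) 1 0 = 0 := by
    have : μ * (y : M₂ K) 1 0 = 0 := by linear_combination t2 - t1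
    exact (mul_eq_zero.1 this).resolve_left hμ
  have e2 : (y : M₂ K) 1 1 = 1 := by
    have : ((y : M₂ K) 1 1 - 1) ^ 2 = 0 := by
      rw [e1] at d
      linear_combination (y : M₂ K) 1 1 * t1 - d
    exact sub_eq_zero.1 (pow_eq_zero_iff two_ne_zero |>.1 this)
  rw [ha]
  ext i j
  fin_cases i <;> fin_cases j <;> simp [mul_apply, Fin.sum_univ_two, e1, e2]

/-- the unipotent matrix -/
def up (p : ℕ) (c : ZMod p) : SL(2, ZMod p) := ⟨!![1, c; 0, 1], by simp [det_fin_two]⟩

/-- the opposite unipotent matrix -/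
def lo (p : ℕ) : SL(2, ZMod p) := ⟨!![1, 0; 1, 1], by simp [det_fin_two]⟩

@[simp] theorem coe_up {p : ℕ} (c : ZMod p) : (up p c : M₂ (ZMod p)) = !![1, c; 0, 1] := rfl

@[simp] theorem coe_lo {p : ℕ} : (lo p : M₂ (ZMod p)) = !![1, 0; 1, 1] := rfl

theorem up_mul {p : ℕ} (c d : ZMod p) : up p c * up p d = up p (c + d) := by
  ext i j
  fin_cases i <;> fin_cases j <;> simp [mul_apply, Fin.sum_univ_two, add_comm]

theorem up_zero {p : ℕ} : up p 0 = 1 := by
  ext i j
  fin_cases i <;> fin_cases j <;> simp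

theorem up_pow {p : ℕ} (c : ZMod p) (n : ℕ) : up p c ^ n = up p (n * c) := by
  induction n with
  | zero => simp [up_zero]
  | succ n ih => rw [pow_succ, ih, up_mul]; congr 1; push_cast; ring

theorem ml {p : ℕ} [Fact p.Prime] (hp : p ≠ 2) {M : Type*} [AddCommGroup M]
    [Module (ZMod p) M] [Finite M] {G : Type*} [Group G] [Finite G]
    (ρ : G →* Module.End (ZMod p) M) {a b : G}
    (hab : Subgroup.closure ({a, b} : Set G) = ⊤) (ha : (ρ a - 1) * (ρ a - 1) = 0)
    (hb : (ρ b - 1) * (ρ b - 1) = 0) (hn : ∃ g, ∀ k, ρ g ^ p ^ k ≠ 1)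
    (hirr : ∀ S : Submodule (ZMod p) M, (∀ g, ∀ v ∈ S, ρ g v ∈ S) → S = ⊥ ∨ S = ⊤)
    (hap : ∃ k, a ^ p ^ k = 1) :
    ∃ (L : Subgroup G) (π : L →* SL(2, ZMod p)) (α β : Module.End (ZMod p) M),
      Function.Surjective π ∧ α * α = 0 ∧ β * β = 0 ∧ α * β + β * α = 1 ∧
      (∀ l : L, ρ l = (π l : M₂ (ZMod p)) 0 0 • (α * β) + (π l : M₂ (ZMod p)) 0 1 • α + (π l : M₂ (ZMod p)) 1 0 • β +
        (π l : M₂ (ZMod p)) 1 1 • (β * α)) ∧ (ρ a - 1) * α = 0 := by
  classical
  let K := AlgebraicClosure (ZMod p)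
  let B := Module.End.baseChangeHom (ZMod p) K M
  have hB : Function.Injective B := LinearMap.baseChangeHom_injective (ZMod p) M K
  let ρ' : G →* Module.End K (K ⊗[ZMod p] M) := B.toRingHom.toMonoidHom.comp ρ
  have hρ' : ∀ g, ρ' g = B (ρ g) := fun _ => rfl
  obtain ⟨μ, φ, f, hμ, fa, fb, hf, hφ⟩ := quad_pair ρ' hab
    (by rw [hρ']; simpa only [map_mul, map_sub, map_one, map_zero] using congrArg B ha)
    (by rw [hρ']; simpa only [map_mul, map_sub, map_one, map_zero] using congrArg B hb)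
    (IsAlgClosed.splits _) (by
      obtain ⟨g, hg⟩ := hn
      refine ⟨g, fun h => ?_⟩
      obtain ⟨k, hk⟩ := pow_eq_one_of_isNilpotent (p := p) h
      rw [hρ', ← map_pow, ← map_one B] at hk
      exact hg k (hB hk))
  let ψ : G →* GL (Fin 2) K := SpecialLinearGroup.toGL.comp φ
  have hψ : ∀ g, (ψ g : Matrix (Fin 2) (Fin 2) K) = (φ g : Matrix (Fin 2) (Fin 2) K) :=
    fun _ => rfl
  have hψ' : ∀ g i j, ψ g i j = (φ g : Matrix (Fin 2) (Fin 2) K) i j := fun _ _ _ => rfl
  haveI : Finite ψ.range := Finite.of_surjective _ ψ.rangeRestrict_surjective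
  obtain ⟨g₀, hg₀⟩ := exists_SL2_le p hp ψ.range (by
      rintro _ ⟨s, rfl⟩
      exact (φ s).det_coe)
    (x := OnePoint.infty) (y := ((0 : K) : OnePoint K)) (OnePoint.infty_ne_coe _)
    (a := ψ a) (b := ψ b) ⟨a, rfl⟩ ⟨b, rfl⟩
    (by rw [uni_infty_toPG]; simp [hψ', fa])
    (by
      intro e
      have : toPG K (ψ a) • ((0 : K) : OnePoint K) = (0 : K) := by rw [e, one_smul]
      rw [toPG_smul, GL_smul_coe (by simp [hψ', fa])] at this
      simp [hψ', fa, hμ] at this)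
    (by rw [uni_zero_toPG]; simp [hψ', fb])
    (by
      intro e
      have : toPG K (ψ b) • (OnePoint.infty : OnePoint K) = OnePoint.infty := by rw [e, one_smul]
      rw [toPG_smul, OnePoint.smul_infty_eq_self_iff] at this
      simp [hψ', fb] at this)
  -- adjust the conjugating matrix
  obtain ⟨g, hg, m, hm, y, hy, hay⟩ : ∃ g : GL (Fin 2) K,
      ((MulAut.conj g).toMonoidHom.comp (slToGL p K)).range ≤ ψ.range ∧ ∃ m : ℕ, m.Coprime p ∧
      ∃ y, ψ y = g * slToGL p K (up p m) * g⁻¹ ∧ ((φ a : M₂ K) - 1) * ((φ y : M₂ K) - 1) = 0 := by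
    obtain ⟨u, hu⟩ := hg₀ ⟨up p 1, rfl⟩
    obtain ⟨m, k, hm, hk⟩ := exists_coprime_pow_pPow (p := p) (isOfFinOrder_of_finite u)
    obtain ⟨k', hk'⟩ := hap
    obtain ⟨P, hP, haP⟩ := exists_isSylowIn_ge (isPGroup_zpowers hk') le_top
    obtain ⟨x, -, hx⟩ := hP.exists_conj_le (isPGroup_zpowers hk) le_top
    have y1 := hx (conj_mem_cj (Subgroup.mem_zpowers _))
    refine ⟨ψ x * g₀, ?_, m, hm, x * u ^ m * x⁻¹, ?_, ?_⟩
    · rintro _ ⟨s, rfl⟩
      obtain ⟨w, hw⟩ := hg₀ ⟨s, rfl⟩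
      refine ⟨x * w * x⁻¹, ?_⟩
      rw [map_mul, map_mul, hw, map_inv]
      simp [mul_assoc]
    · rw [map_mul, map_mul, map_pow, hu, map_inv, ← map_pow, up_pow]
      simp [mul_assoc]
    · obtain ⟨k1, e1⟩ := isPGroup_iff_mem.1 hP.isPGroup _ y1
      obtain ⟨k2, e2⟩ := isPGroup_iff_mem.1 hP.isPGroup _
        (P.mul_mem (haP (Subgroup.mem_zpowers _)) y1)
      exact unip_mul (p := p) hμ fa (by rw [← map_pow, e1, map_one])
        (by rw [← map_mul, ← map_pow, e2, map_one])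
  set θ := (MulAut.conj g).toMonoidHom.comp (slToGL p K) with hθd
  have hθ : Function.Injective θ := (MulAut.conj g).injective.comp (slToGL_injective p)
  let L : Subgroup G := θ.range.comap ψ
  let τ : L →* θ.range := (ψ.comp L.subtype).codRestrict θ.range (fun x => x.2)
  let π : L →* SL(2, ZMod p) := (MonoidHom.ofInjective hθ).symm.toMonoidHom.comp τ
  have hπ : Function.Surjective π := by
    apply (MonoidHom.ofInjective hθ).symm.surjective.comp
    rintro ⟨t, ht⟩
    obtain ⟨s, rfl⟩ := hg ht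
    exact ⟨⟨s, ht⟩, rfl⟩
  have hπθ : ∀ l, θ (π l) = ψ l := fun l => MonoidHom.apply_ofInjective_symm hθ (τ l)
  let f' : (Fin 2 → K) →ₗ[K] K ⊗[ZMod p] M :=
    f.comp (Matrix.mulVecLin (g : Matrix (Fin 2) (Fin 2) K))
  have hf' : ∀ v, f' v = f ((g : Matrix (Fin 2) (Fin 2) K) *ᵥ v) := fun _ => rfl
  have hρf : ∀ x v, B (ρ x) (f' v) = f' (((g⁻¹ * ψ x * g : GL (Fin 2) K) : M₂ K) *ᵥ v) := by
    intro x v
    rw [hf', hf', ← hρ', hφ, ← hψ, mulVec_mulVec, mulVec_mulVec, ← Units.val_mul, ← Units.val_mul]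
    simp [mul_assoc]
  -- the vanishing principle
  have van : ∀ r : Module.End (ZMod p) M, (∀ v, B r (f' v) = 0) → r = 0 := by
    have h0 : f' ![1, 0] ≠ 0 := by
      rw [hf', Ne, map_eq_zero_iff f hf]
      intro h
      have := congrArg (fun w => ((g⁻¹ : GL (Fin 2) K) : Matrix (Fin 2) (Fin 2) K) *ᵥ w) h
      rw [mulVec_mulVec, ← Units.val_mul, inv_mul_cancel, Units.val_one, one_mulVec,
        mulVec_zero] at this
      simpa using congrFun this 0
    obtain ⟨l, hl⟩ := exists_dual_rTensor_ne_zero h0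
    let T : K ⊗[ZMod p] M →ₗ[ZMod p] M :=
      (TensorProduct.lid (ZMod p) M).toLinearMap.comp (l.rTensor M)
    have hT : ∀ (r : Module.End (ZMod p) M) w, T (B r w) = r (T w) := by
      intro r w
      induction w using TensorProduct.induction_on with
      | zero => simp
      | tmul y z =>
        have : B r (y ⊗ₜ z) = y ⊗ₜ r z := rfl
        rw [this]; simp [T]
      | add y z hy hz => simp only [map_add, hy, hz]
    let S : Submodule (ZMod p) M := ⨅ r : {r : Module.End (ZMod p) M // ∀ v, B r (f' v) = 0},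
      LinearMap.ker r.1
    rcases hirr S (fun x v hv => by
      simp only [S, Submodule.mem_iInf, LinearMap.mem_ker] at hv ⊢
      intro r
      exact hv ⟨r.1 * ρ x, fun w => by rw [map_mul, Module.End.mul_apply, hρf, r.2]⟩) with h | h
    · exfalso
      apply hl
      have : T (f' ![1, 0]) ∈ S := by
        simp only [S, Submodule.mem_iInf, LinearMap.mem_ker]
        intro r
        rw [← hT, r.2, map_zero]
      rw [h] at this
      exact this
    · intro r hr
      ext v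
      have : v ∈ S := h ▸ Submodule.mem_top
      simp only [S, Submodule.mem_iInf, LinearMap.mem_ker] at this
      exact this ⟨r, hr⟩
  let c := ZMod.castHom (dvd_refl p) K
  let R : Module.End (ZMod p) M → Matrix (Fin 2) (Fin 2) K → Prop :=
    fun r N => ∀ v, B r (f' v) = f' (N *ᵥ v)
  have R1 : R 1 1 := fun v => by simp
  have R0 : R 0 0 := fun v => by simp
  have Rm : ∀ {r s N N'}, R r N → R s N' → R (r * s) (N * N') := fun h1 h2 v => by
    rw [map_mul, Module.End.mul_apply, h2, h1, mulVec_mulVec]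
  have Ra : ∀ {r s N N'}, R r N → R s N' → R (r + s) (N + N') := fun h1 h2 v => by
    rw [map_add, LinearMap.add_apply, h2, h1, add_mulVec, map_add]
  have Rs : ∀ {r s N N'}, R r N → R s N' → R (r - s) (N - N') := fun h1 h2 v => by
    rw [map_sub, LinearMap.sub_apply, h2, h1, sub_mulVec, map_sub]
  have Rc : ∀ (t : ZMod p) {r N}, R r N → R (t • r) (c t • N) := fun t r N h1 v => by
    have e : algebraMap (ZMod p) K = c := Subsingleton.elim _ _
    rw [map_smul, LinearMap.smul_apply, h1, smul_mulVec, map_smul, ← e, algebraMap_smul]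
  have Re : ∀ {r s N N'}, R r N → R s N' → N = N' → r = s := fun h1 h2 e => by
    subst e
    exact sub_eq_zero.1 (van _ fun v => by rw [Rs h1 h2, sub_self, zero_mulVec, map_zero])
  have Rl : ∀ l : L, R (ρ l) ((π l : M₂ (ZMod p)).map c) := fun l v => by
    rw [hρf, ← hπθ, hθd]
    simp only [MonoidHom.comp_apply, MulEquiv.coe_toMonoidHom, MulAut.conj_apply, mul_assoc,
      inv_mul_cancel, mul_one, inv_mul_cancel_left]
    rfl
  obtain ⟨u, hu⟩ := hπ (up p 1)
  obtain ⟨u', hu'⟩ := hπ (lo p)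
  have Rα : R (ρ u - 1) !![0, 1; 0, 0] := by
    convert Rs (Rl u) R1 using 1
    rw [hu]; ext i j; fin_cases i <;> fin_cases j <;> simp
  have Rβ : R (ρ u' - 1) !![0, 0; 1, 0] := by
    convert Rs (Rl u') R1 using 1
    rw [hu']; ext i j; fin_cases i <;> fin_cases j <;> simp
  refine ⟨L, π, ρ u - 1, ρ u' - 1, hπ, Re (Rm Rα Rα) R0 ?_, Re (Rm Rβ Rβ) R0 ?_,
    Re (Ra (Rm Rα Rβ) (Rm Rβ Rα)) R1 ?_, fun l => Re (Rl l) (Ra (Ra (Ra (Rc _ (Rm Rα Rβ))
      (Rc _ Rα)) (Rc _ Rβ)) (Rc _ (Rm Rβ Rα))) ?_, Re (Rm (Rs (hρf a) R1) Rα) R0 ?_⟩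
  · ext i j; fin_cases i <;> fin_cases j <;> simp
  · ext i j; fin_cases i <;> fin_cases j <;> simp
  · ext i j; fin_cases i <;> fin_cases j <;> simp
  · ext i j; fin_cases i <;> fin_cases j <;> simp
  · have e1 : ((g⁻¹ * ψ y * g : GL (Fin 2) K) : M₂ K) - 1 = (m : K) • !![0, 1; 0, 0] := by
      rw [hy]
      simp only [mul_assoc, inv_mul_cancel, mul_one, inv_mul_cancel_left]
      ext i j; fin_cases i <;> fin_cases j <;> simp [slToGL]
    have e2 : ∀ x, ((g⁻¹ * ψ x * g : GL (Fin 2) K) : M₂ K) - 1 =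
        ((g⁻¹ : GL (Fin 2) K) : M₂ K) * ((φ x : M₂ K) - 1) * (g : M₂ K) := fun x => by
      rw [mul_sub, sub_mul, mul_one, ← Units.val_mul, inv_mul_cancel, Units.val_one, Units.val_mul,
        Units.val_mul]
      rfl
    have e3 : (((g⁻¹ * ψ a * g : GL (Fin 2) K) : M₂ K) - 1) *
        (((g⁻¹ * ψ y * g : GL (Fin 2) K) : M₂ K) - 1) = 0 := by
      rw [e2, e2, mul_assoc, mul_assoc, mul_assoc, ← mul_assoc (g : Matrix (Fin 2) (Fin 2) K),
        ← Units.val_mul, mul_inv_cancel, Units.val_one, one_mul, ← mul_assoc ((φ a : M₂ K) - 1), hay,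
        zero_mul, mul_zero]
    rw [e1, mul_smul_comm, smul_eq_zero] at e3
    refine e3.resolve_left fun h => ?_
    rw [CharP.cast_eq_zero_iff K p] at h
    exact (Fact.out : p.Prime).one_lt.ne' (Nat.Coprime.eq_one_of_dvd hm.symm h)

end H28.ZF
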