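import Cfsg.Agent.H28.ZF1
import Cfsg.Agent.H28.Comm
import Cfsg.Agent.H9.PStable
import Cfsg.Agent.H2.Coprime

/-!
Glauberman's theorem on the failure of control by `ZJ`, part 2: the local datum and its two
consequences.
-/

set_option autoImplicit false

open Cfsg Subgroup Matrix
open scoped MatrixGroups commutatorElement

namespace H28.ZF

local notation "M₂" K:max => Matrix (Fin 2) (Fin 2) K

variable {G : Type*} [Group G] {p : ℕ} {U Y W H : Subgroup G} {ψ : G → Fin 2 → ZMod p}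
  {t x y : G} {m n : M₂ (ZMod p)} {l : (ZMod p)ˣ}

theorem exists_hom_of_rel [Finite G] {X : Type*} [Group X] (R : G → X → Prop) (h1 : R 1 1)
    (hm : ∀ a b x y, R a x → R b y → R (a * b) (x * y)) (hu : ∀ a x y, R a x → R a y → x = y) :
    ∃ (K : Subgroup G) (φ : K →* X), (∀ g x, R g x → x ∈ φ.range) ∧ ∀ g : K, R g (φ g) := by
  have hp : ∀ a x (n : ℕ), R a x → R (a ^ n) (x ^ n) := fun a x n h => by
    induction n with
    | zero => simpa using h1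
    | succ n ih => rw [pow_succ, pow_succ]; exact hm _ _ _ _ ih h
  let K : Subgroup G :=
    { carrier := {g | ∃ x, R g x}
      mul_mem' := fun ⟨_, a⟩ ⟨_, b⟩ => ⟨_, hm _ _ _ _ a b⟩
      one_mem' := ⟨1, h1⟩
      inv_mem' := fun {g} ⟨x, a⟩ => ⟨_, by
        have := hp g x (orderOf g - 1) a
        rwa [show g ^ (orderOf g - 1) = g⁻¹ from eq_inv_of_mul_eq_one_left (by
          rw [← pow_succ, Nat.sub_add_cancel (orderOf_pos g), pow_orderOf_eq_one])] at this⟩ }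
  refine ⟨K, MonoidHom.mk' (fun g => g.2.choose) fun a b =>
    hu _ _ _ (a * b).2.choose_spec (hm _ _ _ _ a.2.choose_spec b.2.choose_spec),
    fun g x h => ⟨⟨g, x, h⟩, hu _ _ _ (Exists.choose_spec (⟨x, h⟩ : ∃ x, R g x)) h⟩,
    fun g => g.2.choose_spec⟩

/-- `x` acts on `W` by the matrix `m` in the coordinates `ψ` -/
def Act (W : Subgroup G) (ψ : G → Fin 2 → ZMod p) (x : G) (m : M₂ (ZMod p)) : Prop :=
  ∀ w ∈ W, x * w * x⁻¹ ∈ W ∧ ψ (x * w * x⁻¹) = m *ᵥ ψ w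

theorem Act.one : Act W ψ 1 1 := fun w hw => by simpa using hw

theorem Act.mul (h : Act W ψ x m) (h' : Act W ψ y n) : Act W ψ (x * y) (m * n) := fun w hw => by
  obtain ⟨a, b⟩ := h' w hw
  obtain ⟨c, d⟩ := h _ a
  rw [show x * y * w * (x * y)⁻¹ = x * (y * w * y⁻¹) * x⁻¹ by group]
  exact ⟨c, by rw [d, b, mulVec_mulVec]⟩

theorem Act.pow (h : Act W ψ x m) (k : ℕ) : Act W ψ (x ^ k) (m ^ k) := by
  induction k with
  | zero => simpa using Act.one
  | succ k ih => rw [pow_succ, pow_succ]; exact ih.mul h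

theorem Act.inv [Finite G] (h : Act W ψ x m) (e : n * m = 1) : Act W ψ x⁻¹ n := fun w hw => by
  have hx : x ∈ 𝐍 W := mem_normalizer_of_cj_le (by rintro _ ⟨w, hw, rfl⟩; exact (h w hw).1)
  have a := conj_mem_of_mem_normalizer (inv_mem hx) hw
  refine ⟨a, ?_⟩
  have b := (h _ a).2
  rw [show x * (x⁻¹ * w * x⁻¹⁻¹) * x⁻¹ = w by group] at b
  rw [b, mulVec_mulVec, e, one_mulVec]

theorem Act.uniq (hs : ∀ v, ∃ w ∈ W, ψ w = v) (h : Act W ψ x m) (h' : Act W ψ x n) : m = n := by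
  refine Matrix.toLin'.injective (LinearMap.ext fun v => ?_)
  obtain ⟨w, hw, rfl⟩ := hs v
  exact (h w hw).2.symm.trans (h' w hw).2

theorem Act.congr (h : Act W ψ x m) (e : ∀ w ∈ W, y * w * y⁻¹ = x * w * x⁻¹) : Act W ψ y m :=
  fun w hw => e w hw ▸ h w hw

theorem Act.conj (h : Act W ψ x m) (g : G) :
    Act (cj g W) (fun w => ψ (g⁻¹ * w * g)) (g * x * g⁻¹) m := fun w hw => by
  obtain ⟨a, b⟩ := h _ (mem_cj.1 hw)
  have e : g⁻¹ * (g * x * g⁻¹ * w * (g * x * g⁻¹)⁻¹) * g = x * (g⁻¹ * w * g) * x⁻¹ := by group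
  exact ⟨mem_cj.2 (e ▸ a), by simp only [e, b]⟩

/-- the diagonal matrix -/
def dg (l : (ZMod p)ˣ) : M₂ (ZMod p) := !![l, 0; 0, ↑l⁻¹]

theorem dg_mul (l k : (ZMod p)ˣ) : dg l * dg k = dg (l * k) := by
  ext i j; fin_cases i <;> fin_cases j <;> simp [dg, mul_comm]

theorem dg_pow (l : (ZMod p)ˣ) (k : ℕ) : dg l ^ k = dg (l ^ k) := by
  induction k with
  | zero => ext i j; fin_cases i <;> fin_cases j <;> simp [dg]
  | succ k ih => rw [pow_succ, pow_succ, ih, dg_mul]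

theorem dg_mulVec0 (l : (ZMod p)ˣ) (v : Fin 2 → ZMod p) : (dg l *ᵥ v) 0 = l * v 0 := by
  simp [dg, mulVec, dotProduct, Fin.sum_univ_two]

theorem dg_mulVec1 (l : (ZMod p)ˣ) (v : Fin 2 → ZMod p) : (dg l *ᵥ v) 1 = ↑l⁻¹ * v 1 := by
  simp [dg, mulVec, dotProduct, Fin.sum_univ_two]

theorem dg_neg : dg (-1 : (ZMod p)ˣ) = -1 := by
  ext i j; fin_cases i <;> fin_cases j <;> simp [dg]

/-- the local datum: `U⟨t⟩` acts on a section of order `p²` of `W` as the Borel subgroup of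
`SL₂(p)`, and `Y` covers the fixed line of `U` -/
structure Dat (U Y W : Subgroup G) (ψ : G → Fin 2 → ZMod p) (t : G) (l : (ZMod p)ˣ) : Prop where
  pU : IsPGroup p U
  WU : W ≤ U
  YU : Y ≤ U
  add : ∀ x ∈ W, ∀ y ∈ W, ψ (x * y) = ψ x + ψ y
  surj : ∀ v, ∃ w ∈ W, ψ w = v
  actU : ∀ u ∈ U, ∃ c, Act W ψ u !![1, c; 0, 1]
  exU : ∀ c, ∃ u ∈ U, Act W ψ u !![1, c; 0, 1]
  tN : t ∈ 𝐍 U
  actt : Act W ψ t (dg l)
  ord : orderOf l = p - 1
  tY : t ∈ 𝐍 Y
  exY : ∃ y ∈ Y, y ∈ W ∧ ψ y 1 = 0 ∧ ψ y 0 ≠ 0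

namespace Dat

theorem conj (h : Dat U Y W ψ t l) (g : G) :
    Dat (cj g U) (cj g Y) (cj g W) (fun w => ψ (g⁻¹ * w * g)) (g * t * g⁻¹) l where
  pU := isPGroup_cj g h.pU
  WU := cj_mono g h.WU
  YU := cj_mono g h.YU
  add x hx y hy := by
    rw [← h.add _ (mem_cj.1 hx) _ (mem_cj.1 hy)]; congr 1; group
  surj v := by
    obtain ⟨w, hw, rfl⟩ := h.surj v
    exact ⟨_, conj_mem_cj hw, by congr 1; group⟩
  actU := by
    rintro _ ⟨u, hu, rfl⟩
    obtain ⟨c, hc⟩ := h.actU u hu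
    exact ⟨c, hc.conj g⟩
  exU c := by
    obtain ⟨u, hu, hc⟩ := h.exU c
    exact ⟨_, conj_mem_cj hu, hc.conj g⟩
  tN := by rw [← cj_normalizer]; exact conj_mem_cj h.tN
  actt := h.actt.conj g
  ord := h.ord
  tY := by rw [← cj_normalizer]; exact conj_mem_cj h.tY
  exY := by
    obtain ⟨y, a, b, c, d⟩ := h.exY
    have e : g⁻¹ * (g * y * g⁻¹) * g = y := by group
    exact ⟨_, conj_mem_cj a, conj_mem_cj b, by simpa only [e] using c, by simpa only [e] using d⟩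

theorem congr [Finite G] (h : Dat U Y W ψ t l) {s : G} (e : ∀ u ∈ U, s * u * s⁻¹ = t * u * t⁻¹) :
    Dat U Y W ψ s l :=
  { h with
    tN := mem_normalizer_of_cj_le (by
      rintro _ ⟨u, hu, rfl⟩
      exact ((e u hu).symm ▸ conj_mem_of_mem_normalizer h.tN hu : s * u * s⁻¹ ∈ U))
    actt := h.actt.congr fun w hw => e w (h.WU hw)
    tY := mem_normalizer_of_cj_le (by
      rintro _ ⟨u, hu, rfl⟩
      exact ((e u (h.YU hu)).symm ▸ conj_mem_of_mem_normalizer h.tY hu : s * u * s⁻¹ ∈ Y)) }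

variable (h : Dat U Y W ψ t l)
include h

theorem one : ψ 1 = 0 := by simpa using h.add 1 W.one_mem 1 W.one_mem

theorem inv (hx : x ∈ W) : ψ x⁻¹ = -ψ x :=
  eq_neg_of_add_eq_zero_left (by rw [← h.add _ (inv_mem hx) _ hx, inv_mul_cancel, h.one])

theorem pow (hx : x ∈ W) (k : ℕ) : ψ (x ^ k) = k • ψ x := by
  induction k with
  | zero => simpa using h.one
  | succ k ih => rw [pow_succ, h.add _ (pow_mem hx k) _ hx, ih, succ_nsmul]

theorem actW (hx : x ∈ W) : Act W ψ x 1 := fun w hw =>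
  ⟨mul_mem (mul_mem hx hw) (inv_mem hx), by
    rw [h.add _ (mul_mem hx hw) _ (inv_mem hx), h.add _ hx _ hw, h.inv hx, one_mulVec]; abel⟩

variable [hp : Fact p.Prime] [Finite G]

theorem involves (h2 : p ≠ 2) (hU : U ≤ H) (ht : t ∈ H) : H9.Involves H (fOver (ZMod p)) := by
  obtain ⟨k, hk⟩ := exists_pow_coprime (p := p) (isOfFinOrder_of_finite t)
  set s := t ^ p ^ k with hs
  have sH : s ∈ H := pow_mem ht _
  have sN : s ∈ 𝐍 U := pow_mem h.tN _
  have as : ∀ j : ℕ, Act W ψ (s ^ j) (dg (l ^ j)) := fun j => by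
    have := (h.actt.pow (p ^ k)).pow j
    rwa [dg_pow, dg_pow, show l ^ p ^ k = l from Units.ext (by
      rw [Units.val_pow_eq_pow_val, ZMod.pow_card_pow])] at this
  obtain ⟨n, hn⟩ := hp.out.odd_of_ne_two h2
  have hn0 : 0 < n := by have := hp.out.two_le; omega
  have ln : l ^ n = -1 := by
    have a : (l ^ n) ^ 2 = 1 := by
      rw [← pow_mul, show n * 2 = p - 1 by omega, ← h.ord, pow_orderOf_eq_one]
    refine Units.ext ((sq_eq_one_iff.1 (congrArg Units.val a)).resolve_left fun e => ?_)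
    replace e : l ^ n = 1 := Units.ext e
    have := Nat.le_of_dvd hn0 (orderOf_dvd_of_pow_eq_one e)
    rw [h.ord] at this
    omega
  set z := s ^ n with hz
  have az : Act W ψ z (-1) := by simpa only [ln, dg_neg] using as n
  have two : (2 : ZMod p) ≠ 0 := fun e => h2 ((Nat.prime_dvd_prime_iff_eq hp.out Nat.prime_two).1
    ((ZMod.natCast_eq_zero_iff 2 p).1 (by exact_mod_cast e)))
  -- unipotent elements centralizing `z`
  have exu : ∀ c, ∃ u ∈ U, u * z = z * u ∧ Act W ψ u !![1, c; 0, 1] := fun c => by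
    obtain ⟨u, hu, hc⟩ := h.exU c
    obtain ⟨j, hj⟩ := IsPGroup.iff_card.1 h.pU
    obtain ⟨a, ha, b, hb, rfl⟩ := H2.exists_commutator_mul_centralizer (A := zpowers z)
      (zpowers_le.2 (pow_mem sN n)) (by
        rw [Nat.card_zpowers, hj]
        exact (hk.coprime_dvd_left (orderOf_pow_dvd n)).pow_right j)
      (Or.inr (haveI := h.pU.isNilpotent; inferInstance)) hu
    let N : Subgroup G :=
      { carrier := {g | Act W ψ g 1}
        mul_mem' := fun a b => by simpa using a.mul b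
        one_mem' := Act.one
        inv_mem' := fun a => a.inv (one_mul 1) }
    have hN : ⁅U, zpowers z⁆ ≤ N := commutator_le.2 fun u hu y hy => by
      obtain ⟨i, rfl⟩ := (mem_powers_iff_mem_zpowers.2 hy)
      obtain ⟨c, hc⟩ := h.actU u hu
      have e1 : !![1, -c; 0, 1] * !![1, c; 0, 1] = 1 := by
        ext i j; fin_cases i <;> fin_cases j <;> simp
      have e2 : (-1 : M₂ (ZMod p)) ^ i * (-1) ^ i = 1 := by rw [← (Commute.refl _).mul_pow]; simp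
      have := ((hc.mul (az.pow i)).mul (hc.inv e1)).mul ((az.pow i).inv e2)
      rwa [((Commute.neg_one_right !![1, c; 0, 1]).pow_right i).eq, mul_assoc _ !![1, c; 0, 1],
        mul_eq_one_comm.1 e1, mul_one, e2] at this
    refine ⟨b, hb.1, (hb.2 z (mem_zpowers z)).symm, ?_⟩
    have := (Act.inv (hN ha) (one_mul 1)).mul hc
    rwa [inv_mul_cancel_left, one_mul] at this
  obtain ⟨K, φ, h1, h3⟩ := exists_hom_of_rel (X := SL(3, ZMod p)) (fun g x => g ∈ H ∧ ⁅g, z⁆ ∈ W ∧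
      Act W ψ g !![x 0 0, x 0 1; 0, x 1 1] ∧ ψ ⁅g, z⁆ = ![x 0 2, x 1 2] ∧
      x 1 0 = 0 ∧ x 2 0 = 0 ∧ x 2 1 = 0 ∧ x 2 2 = 1)
    ⟨H.one_mem, by simp, by
      convert Act.one (W := W) (ψ := ψ) using 1
      ext i j; fin_cases i <;> fin_cases j <;> simp,
      by ext i; fin_cases i <;> simp [h.one], by simp⟩
    (by
      rintro a b x y ⟨a1, a2, a3, a4, a5, a6, a7, a8⟩ ⟨b1, b2, b3, b4, b5, b6, b7, b8⟩
      have e : ⁅a * b, z⁆ = a * ⁅b, z⁆ * a⁻¹ * ⁅a, z⁆ := by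
        simp only [commutatorElement_def]; group
      obtain ⟨c1, c2⟩ := a3 _ b2
      refine ⟨mul_mem a1 b1, e ▸ mul_mem c1 a2, ?_, ?_, ?_⟩
      · convert a3.mul b3 using 1
        ext i j; fin_cases i <;> fin_cases j <;>
          simp [mul_apply, Fin.sum_univ_three, a5, b5, b6, b7]
      · rw [e, h.add _ c1 _ a2, c2, a4, b4]
        ext i; fin_cases i <;>
          simp [mul_apply, Fin.sum_univ_three, mulVec, dotProduct, a5, b8, mul_comm]
      · simp [mul_apply, Fin.sum_univ_three, a5, a6, a7, a8, b5, b6, b7, b8])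
    (by
      rintro a x y ⟨-, -, a3, a4, a5, a6, a7, a8⟩ ⟨-, -, b3, b4, b5, b6, b7, b8⟩
      have e1 := a3.uniq h.surj b3
      have e2 := a4.symm.trans b4
      have f00 := congrFun (congrFun e1 0) 0
      have f01 := congrFun (congrFun e1 0) 1
      have f11 := congrFun (congrFun e1 1) 1
      have f02 := congrFun e2 0
      have f12 := congrFun e2 1
      simp at f00 f01 f11 f02 f12
      ext i j
      fin_cases i <;> fin_cases j <;> simp [*])
  have hr : fOver (ZMod p) ≤ φ.range := by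
    rw [fOver, closure_le]
    rintro x ⟨x1, x2, x3, x4⟩
    have d := x.det_coe
    rw [det_fin_three, x1, x2, x3, x4] at d
    have d' : x 0 0 * x 1 1 = 1 := by linear_combination d
    let a : (ZMod p)ˣ := Units.mkOfMulEqOne _ _ d'
    obtain ⟨j, hj⟩ : ∃ j : ℕ, l ^ j = a := by
      have : zpowers l = ⊤ := eq_top_of_card_eq _ (by
        rw [Nat.card_zpowers, h.ord, Nat.card_eq_fintype_card, ZMod.card_units])
      exact mem_powers_iff_mem_zpowers.2 (this ▸ mem_top a)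
    obtain ⟨w, hw, e⟩ := h.surj ((2 : ZMod p)⁻¹ • ![x 0 2, x 1 2])
    obtain ⟨u, hu, e1, e2⟩ := exu (x 0 1 * x 0 0)
    have e3 : ⁅w * (u * s ^ j), z⁆ = w * (z * w⁻¹ * z⁻¹) := by
      have : u * s ^ j * z = z * (u * s ^ j) := by
        rw [mul_assoc, hz, pow_mul_comm, ← mul_assoc, ← hz, e1, mul_assoc]
      rw [commutatorElement_def, mul_assoc w, this]; group
    obtain ⟨c1, c2⟩ := az _ (inv_mem hw)
    refine h1 (w * (u * s ^ j)) x ⟨mul_mem (hU (h.WU hw)) (mul_mem (hU hu) (pow_mem sH j)),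
      e3 ▸ mul_mem hw c1, ?_, ?_, x1, x2, x3, x4⟩
    · convert (h.actW hw).mul (e2.mul (as j)) using 1
      rw [hj]
      have : ((a⁻¹ : (ZMod p)ˣ) : ZMod p) = x 1 1 := rfl
      ext i j; fin_cases i <;> fin_cases j <;> simp [dg, this, a, mul_assoc, d']
    · rw [e3, h.add _ hw _ c1, c2, h.inv hw, neg_mulVec, one_mulVec, neg_neg, ← two_smul (ZMod p),
        e, smul_smul, mul_inv_cancel₀ two, one_smul]
  refine ⟨K, fun g hg => (h3 ⟨g, hg⟩).1, φ.codRestrict _ fun g => subset_closure (h3 g).2.2.2.2,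
    fun x => ?_⟩
  obtain ⟨g, hg⟩ := hr x.2
  exact ⟨g, Subtype.ext hg⟩

theorem eigen (hY : Y ≤ 𝐂 Y) :
    ∃ c ∈ Y, orderOf c = p ∧ t * c * t⁻¹ = c ^ (l : ZMod p).val := by
  obtain ⟨k, hk, hk'⟩ : ∃ k : ℕ, k = (l : ZMod p).val ∧ (k : ZMod p) = l :=
    ⟨_, rfl, ZMod.natCast_zmod_val _⟩
  rw [← hk]
  let Y₁ : Subgroup G :=
    { carrier := {y | y ∈ Y ∧ y ∈ W ∧ ψ y 1 = 0}
      mul_mem' := fun ⟨a1, a2, a3⟩ ⟨b1, b2, b3⟩ =>
        ⟨mul_mem a1 b1, mul_mem a2 b2, by simp [h.add _ a2 _ b2, a3, b3]⟩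
      one_mem' := ⟨one_mem _, one_mem _, by simp [h.one]⟩
      inv_mem' := fun ⟨a1, a2, a3⟩ => ⟨inv_mem a1, inv_mem a2, by simp [h.inv a2, a3]⟩ }
  have c1 : ∀ y ∈ Y₁, t * y * t⁻¹ ∈ Y₁ := fun y ⟨a1, a2, a3⟩ =>
    ⟨conj_mem_of_mem_normalizer h.tY a1, (h.actt y a2).1, by
      rw [(h.actt y a2).2, dg_mulVec1, a3, mul_zero]⟩
  let δ : Y₁ → Y₁ := fun y => ⟨_, mul_mem (c1 y y.2) (inv_mem (pow_mem y.2 k))⟩
  have c2 : ¬ Function.Injective δ := fun e => by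
    obtain ⟨y, a1, a2, a3, a4⟩ := h.exY
    obtain ⟨x, hx⟩ := Finite.surjective_of_injective e ⟨y, a1, a2, a3⟩
    obtain ⟨b1, b2⟩ := h.actt x x.2.2.1
    apply a4
    rw [← show t * x * t⁻¹ * ((x : G) ^ k)⁻¹ = y from congrArg Subtype.val hx,
      h.add _ b1 _ (inv_mem (pow_mem x.2.2.1 k)), b2, h.inv (pow_mem x.2.2.1 k), h.pow x.2.2.1]
    rw [Pi.add_apply, dg_mulVec0]
    simp [hk']
  simp only [Function.Injective, not_forall] at c2
  obtain ⟨x, y, e, ne⟩ := c2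
  replace e : t * x * t⁻¹ * ((x : G) ^ k)⁻¹ = t * y * t⁻¹ * ((y : G) ^ k)⁻¹ :=
    congrArg Subtype.val e
  have c3 : t * ((y : G)⁻¹ * x) * t⁻¹ = ((y : G)⁻¹ * x) ^ k := by
    rw [Commute.mul_pow (Commute.inv_left (hY x.2.1 y y.2.1)), inv_pow]
    calc _ = (t * y * t⁻¹)⁻¹ * (t * x * t⁻¹ * ((x : G) ^ k)⁻¹) * (x : G) ^ k := by group
      _ = _ := by rw [e]; group
  have c4 : zpowers ((y : G)⁻¹ * x) ≤ Y := zpowers_le.2 (mul_mem (inv_mem y.2.1) x.2.1)
  obtain ⟨c, hc, ho⟩ := exists_orderOf_eq_of_isPGroup (h.pU.to_le (c4.trans h.YU)) (by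
    rw [Ne, zpowers_eq_bot, inv_mul_eq_one]
    exact fun e => ne (Subtype.ext e.symm))
  refine ⟨c, c4 hc, ho, ?_⟩
  obtain ⟨i, rfl⟩ := mem_powers_iff_mem_zpowers.2 hc
  simp only
  rw [← conj_pow, c3, ← pow_mul, ← pow_mul, mul_comm]

end Dat

theorem relIndex_eq [hp : Fact p.Prime] [Finite G] {c : G} (hc : orderOf c = p) (ht : t ∈ H)
    (e : t * c * t⁻¹ = c ^ (l : ZMod p).val) (ord : orderOf l = p - 1) :
    (H ⊓ 𝐂 (zpowers c)).relIndex (H ⊓ 𝐍 (zpowers c)) = p - 1 := by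
  let φ : ↥(H ⊓ 𝐍 (zpowers c)) →* MulAut (zpowers c) :=
    (zpowers c).normalizerMonoidHom.comp (inclusion inf_le_right)
  have hk : ∀ g, φ g = 1 ↔ (g : G) ∈ 𝐂 (zpowers c) := fun g => by
    rw [← MonoidHom.mem_ker, ← MonoidHom.comap_ker, normalizerMonoidHom_ker]; rfl
  have h1 : (H ⊓ 𝐂 (zpowers c)).subgroupOf (H ⊓ 𝐍 (zpowers c)) = φ.ker := by
    ext g
    rw [MonoidHom.mem_ker, hk, mem_subgroupOf]
    exact ⟨fun a => a.2, fun a => ⟨g.2.1, a⟩⟩
  rw [relIndex, h1, index_ker]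
  refine Nat.dvd_antisymm ?_ ?_
  · have := card_subgroup_dvd_card φ.range
    rwa [IsCyclic.card_mulAut, Nat.card_zpowers, hc, Nat.totient_prime hp.out] at this
  · have tN : t ∈ 𝐍 (zpowers c) := mem_normalizer_of_cj_le (by
      rw [cj_zpowers, e]; exact zpowers_le.2 (pow_mem (mem_zpowers c) _))
    have e1 : ∀ j : ℕ, t ^ j * c * (t ^ j)⁻¹ = c ^ (l : ZMod p).val ^ j := fun j => by
      induction j with
      | zero => simp
      | succ j ih =>
        rw [pow_succ' t, show t * t ^ j * c * (t * t ^ j)⁻¹ = t * (t ^ j * c * (t ^ j)⁻¹) * t⁻¹ by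
          group, ih, ← conj_pow, e, ← pow_mul, pow_succ']
    refine Dvd.dvd.trans ?_ (orderOf_dvd_natCard (⟨φ ⟨t, ht, tN⟩, ⟨_, rfl⟩⟩ : φ.range))
    rw [← ord, orderOf_dvd_iff_pow_eq_one]
    set j := orderOf (⟨φ ⟨t, ht, tN⟩, ⟨_, rfl⟩⟩ : φ.range)
    have e2 : φ (⟨t, ht, tN⟩ ^ j) = 1 := by
      rw [map_pow]
      exact congrArg Subtype.val (pow_orderOf_eq_one (⟨φ ⟨t, ht, tN⟩, ⟨_, rfl⟩⟩ : φ.range))
    have e3 : c * t ^ j = t ^ j * c := (hk _).1 e2 c (mem_zpowers c)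
    have e4 := e1 j
    rw [← e3, mul_inv_cancel_right] at e4
    nth_rw 1 [← pow_one c] at e4
    rw [pow_eq_pow_iff_modEq, hc, ← ZMod.natCast_eq_natCast_iff] at e4
    apply Units.ext
    simpa using e4.symm

end H28.ZF
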