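import Cfsg.Agent.H28.ZF2
import Cfsg.Agent.H28.MinOver
import Cfsg.Agent.H0.Sec

/-!
Glauberman's theorem on the failure of control by `ZJ`, part 3: the local lemma for a group
generated by two conjugates of a quadratic element.
-/

set_option autoImplicit false

open Cfsg Subgroup Matrix
open scoped MatrixGroups commutatorElement

namespace H28.ZF

local notation "M₂" K:max => Matrix (Fin 2) (Fin 2) K

/-- a submonoid of a finite group is a subgroup -/
def subOf {Γ : Type*} [Group Γ] [Finite Γ] (S : Submonoid Γ) : Subgroup Γ :=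
  { S with
    inv_mem' := fun {g} hg => by
      rw [← show g ^ (orderOf g - 1) = g⁻¹ from eq_inv_of_mul_eq_one_left (by
        rw [← pow_succ, Nat.sub_add_cancel (orderOf_pos g), pow_orderOf_eq_one])]
      exact S.pow_mem hg _ }

/-- the unitriangular group -/
def UU (p : ℕ) : Subgroup SL(2, ZMod p) where
  carrier := {s | ∃ c, s = up p c}
  mul_mem' := by rintro _ _ ⟨c, rfl⟩ ⟨d, rfl⟩; exact ⟨_, up_mul c d⟩
  one_mem' := ⟨0, up_zero.symm⟩
  inv_mem' := by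
    rintro _ ⟨c, rfl⟩
    exact ⟨-c, inv_eq_of_mul_eq_one_right (by rw [up_mul, add_neg_cancel, up_zero])⟩

/-- the diagonal element of `SL₂` -/
def dgs {p : ℕ} (l : (ZMod p)ˣ) : SL(2, ZMod p) := ⟨dg l, by simp [dg, det_fin_two]⟩

theorem coe_dgs {p : ℕ} (l : (ZMod p)ˣ) : (dgs l : M₂ (ZMod p)) = dg l := rfl

theorem dgs_mul_up {p : ℕ} (l : (ZMod p)ˣ) (c : ZMod p) : dgs l * up p c = up p (l * l * c) * dgs l := by
  ext i j
  fin_cases i <;> fin_cases j <;> simp [coe_dgs, dg, mul_apply, Fin.sum_univ_two]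
  rw [mul_right_comm, mul_assoc (l : ZMod p), Units.mul_inv, mul_one]

variable {G : Type*} [Group G] [Finite G] {p : ℕ} [hp : Fact p.Prime]

theorem exists_chief {L Q E : Subgroup G} (hQ : IsPGroup p Q) (hEQ : E ≤ Q) (hQL : Q ≤ L)
    (hLE : L ≤ 𝐍 E) (hLQ : L ≤ 𝐍 Q) (hc : ¬ pResidualOf p L ≤ 𝐂 E) :
    ∃ W D : Subgroup G, D ≤ W ∧ W ≤ E ∧ L ≤ 𝐍 W ∧ L ≤ 𝐍 D ∧ ⁅W, Q⁆ ≤ D ∧ (∀ x ∈ W, x ^ p ∈ D) ∧
      ⁅E, pResidualOf p L⁆ ≤ W ∧ ¬ ⁅W, pResidualOf p L⁆ ≤ D ∧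
      ∀ K, D ≤ K → K ≤ W → L ≤ 𝐍 K → K = D ∨ K = W := by
  obtain ⟨D, -, ⟨d1, d2, d3⟩, hmax⟩ := H1.exists_maximal_ge
    (P := fun D => D ≤ E ∧ L ≤ 𝐍 D ∧ ¬ ⁅E, pResidualOf p L⁆ ≤ D) (H := ⊥)
    ⟨bot_le, normalizer_bot (G := G) ▸ le_top, fun h => hc (commutator_eq_bot_iff'.1 (le_bot_iff.1 h))⟩
  have hPE := (pResidualOf_le p L).trans hLE
  have w1 : ⁅E, pResidualOf p L⁆ ⊔ D ≤ E := sup_le (commutator_le_of_le_normalizer hPE) d1
  have w2 : L ≤ 𝐍 (⁅E, pResidualOf p L⁆ ⊔ D) :=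
    le_normalizer_sup (le_normalizer_commutator hLE (le_normalizer_pResidualOf p L)) d2
  set W := ⁅E, pResidualOf p L⁆ ⊔ D with hW
  have hWD : ¬ W ≤ D := fun h => d3 (le_sup_left.trans h)
  have key : ∀ K, D ≤ K → K ≤ W → L ≤ 𝐍 K → K = D ∨ K = W := fun K k1 k2 k3 => by
    by_cases h : ⁅E, pResidualOf p L⁆ ≤ K
    · exact Or.inr (le_antisymm k2 (sup_le h k1))
    · exact Or.inl (hmax K ⟨k2.trans w1, k3, h⟩ k1)
  have hWL := w1.trans (hEQ.trans hQL)
  have w3 : ⁅W, Q⁆ ≤ D := by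
    rcases key (D ⊔ ⁅W, Q⁆) le_sup_left (sup_le le_sup_right (commutator_le_of_le_normalizer
      (hQL.trans w2))) (le_normalizer_sup d2 (le_normalizer_commutator w2 hLQ)) with h | h
    · exact le_sup_right.trans h.le
    · exact absurd (le_of_le_sup_commutator_of_nilpotent (isNilpotent_of_isPGroup hQ) (w1.trans hEQ)
        le_rfl (hWL.trans d2) (hQL.trans d2) (hQL.trans w2) h.ge) hWD
  refine ⟨W, D, le_sup_right, w1, w2, d2, w3, ?_, le_sup_left, fun h => d3 ?_, key⟩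
  · haveI : (D.subgroupOf W).Normal := normal_subgroupOf_of_le_normalizer (hWL.trans d2)
    let f := QuotientGroup.mk' (D.subgroupOf W)
    have hf : ∀ x : W, f x = 1 ↔ (x : G) ∈ D := fun x => QuotientGroup.eq_one_iff x
    let K : Subgroup G :=
      { carrier := {x | x ∈ W ∧ x ^ p ∈ D}
        mul_mem' := fun {x y} ⟨a1, a2⟩ ⟨b1, b2⟩ => ⟨mul_mem a1 b1, by
          have c : Commute (f ⟨x, a1⟩) (f ⟨y, b1⟩) := by
            rw [← commutatorElement_eq_one_iff_commute, ← map_commutatorElement, hf]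
            exact w3 (commutator_mem_commutator a1 (hEQ (w1 b1)))
          refine (hf (⟨x * y, mul_mem a1 b1⟩ ^ p)).1 ?_
          rw [map_pow, show (⟨x * y, mul_mem a1 b1⟩ : W) = ⟨x, a1⟩ * ⟨y, b1⟩ from rfl, map_mul,
            c.mul_pow, ← map_pow, ← map_pow, (hf _).2 a2, (hf _).2 b2, one_mul]⟩
        one_mem' := ⟨one_mem _, by rw [one_pow]; exact one_mem _⟩
        inv_mem' := fun ⟨a1, a2⟩ => ⟨inv_mem a1, by rw [inv_pow]; exact inv_mem a2⟩ }
    rcases key K (fun x hx => ⟨mem_sup_right hx, pow_mem hx p⟩) (fun x hx => hx.1)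
      (le_normalizer_of_cj_le (by
        rintro g hg _ ⟨x, ⟨a1, a2⟩, rfl⟩
        exact ⟨conj_mem_of_mem_normalizer (w2 hg) a1, by
          have := conj_mem_of_mem_normalizer (d2 hg) a2
          rwa [← conj_pow] at this⟩)) with h | h
    · refine absurd (fun x hx => ?_) hWD
      obtain ⟨k, hk⟩ := isPGroup_iff_mem.1 hQ x (hEQ (w1 hx))
      have : ∀ k : ℕ, x ^ p ^ k ∈ D → x ∈ D := fun k => by
        induction k with
        | zero => simp
        | succ k ih => exact fun e => ih (h.le ⟨pow_mem hx _, by rwa [← pow_mul, ← pow_succ]⟩)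
      exact this k (hk ▸ one_mem D)
    · exact fun x hx => (h.ge hx).2
  · rw [← commutator_commutator_pResidualOf' (hQ.to_le hEQ) hLE]
    exact (commutator_mono le_sup_left le_rfl).trans h

theorem core (h2 : p ≠ 2) {L M Q Y V Z : Subgroup G} {a : G} (hu : UniqMax (zpowers a) L M)
    (hg : nclIn (zpowers a) L = L) (hap : IsPGroup p (zpowers a)) (hQ : IsPGroup p Q)
    (hLQ : L ≤ 𝐍 Q) (hYQ : Y ≤ Q) (hQY : Q ≤ 𝐍 Y) (hM : M ≤ 𝐍 Y) (hLY : ¬ L ≤ 𝐍 Y) (hYV : Y ≤ V)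
    (hLV : L ≤ 𝐍 V) (hZ : L ⊔ Q ≤ 𝐂 Z) (hq : ⁅⁅V, zpowers a⁆, zpowers a⁆ ≤ Z) :
    ∃ (U W : Subgroup G) (ψ : G → Fin 2 → ZMod p) (t : G) (l : (ZMod p)ˣ),
      Dat U Y W ψ t l ∧ Q < U ∧ U ≤ M ⊔ Q ∧ t ∈ M := by
  have two : (2 : ZMod p) ≠ 0 := fun e => h2 ((Nat.prime_dvd_prime_iff_eq hp.out Nat.prime_two).1
    ((ZMod.natCast_eq_zero_iff 2 p).1 (by exact_mod_cast e)))
  have aL : a ∈ L := hu.le_L (mem_zpowers a)
  have hEQ : nclIn Y L ≤ Q := nclIn_le hYQ hLQ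
  have hEV : nclIn Y L ≤ V := nclIn_le hYV hLV
  have hE : L ⊔ Q ≤ 𝐍 (nclIn Y L) := sup_le (le_normalizer_nclIn Y L)
    (le_normalizer_of_cj_le fun d hd => by
      rw [nclIn, cj_iSup]
      refine iSup_mono fun g => (cj_eq_self ?_).le
      rw [← cj_normalizer]
      exact cj_mono _ hQY ((cj_eq_self (hLQ g.2)).ge hd))
  obtain ⟨W, D, hDW, hWE, hW, hD, w1, w2, w3, w4, key⟩ := exists_chief hQ hEQ le_sup_right hE
    (sup_le hLQ le_normalizer) fun h => by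
      obtain ⟨S, hS, haS⟩ := exists_isSylowIn_ge hap hu.le
      refine hLY ((hu.isSylowIn hg hS haS).pResidualOf_sup.ge.trans (sup_le ?_ (hS.le.trans hM)))
      exact le_normalizer_of_le_centralizer ((pResidualOf_mono le_sup_left).trans
        (h.trans (centralizer_anti (le_nclIn Y L))))
  have hWQ := hWE.trans hEQ
  have hPL := pResidualOf_le p (L ⊔ Q)
  have hWD : ¬ W ≤ D := fun h => w4 ((commutator_le_of_le_normalizer (hPL.trans hW)).trans h)
  have hWZ : W ⊓ Z ≤ D := by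
    rcases key (D ⊔ W ⊓ Z) le_sup_left (sup_le hDW inf_le_left) (le_normalizer_sup hD
      (le_normalizer_inf hW (le_normalizer_of_le_centralizer hZ))) with h | h
    · exact le_sup_right.trans h.le
    · refine absurd (le_trans (commutator_mono h.ge le_rfl) (H1.commutator_sup_le le_normalizer
        ((inf_le_left.trans (hWQ.trans le_sup_right)).trans hD)
        (commutator_le_of_le_normalizer (hPL.trans hD)) ?_)) w4
      rw [commutator_eq_bot_iff'.2 (hPL.trans (hZ.trans (centralizer_anti inf_le_right)))]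
      exact bot_le
  obtain ⟨E, _, _, π, ρ, s⟩ := H0.exists_sec (p := p) hDW hW hD
    ((commutator_mono le_rfl hWQ).trans w1) w2
  haveI := s.finite
  have pc : ∀ (g : ↥(L ⊔ Q)), ∀ w ∈ W, π ⁅(g : G), w⁆ = (ρ g - 1) (π w) := fun g w hw => by
    rw [commutatorElement_def, s.add _ (conj_mem_of_mem_normalizer (hW g.2) hw) _ (inv_mem hw),
      s.conj g w hw, s.inv hw, LinearMap.sub_apply, Module.End.one_apply, sub_eq_add_neg]
  have cW : ∀ (g : ↥(L ⊔ Q)), ∀ w ∈ W, ⁅(g : G), w⁆ ∈ W := fun g w hw =>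
    mul_mem (conj_mem_of_mem_normalizer (hW g.2) hw) (inv_mem hw)
  have ρQ : ∀ g : ↥(L ⊔ Q), (g : G) ∈ Q → ρ g = 1 := fun g hg => by
    ext v
    obtain ⟨w, hw, rfl⟩ := s.surj v
    have := (s.ker _ (cW g w hw)).2 (commutatorElement_mem_comm.1
      (w1 (commutator_mem_commutator hw hg)))
    rwa [pc g w hw, LinearMap.sub_apply, sub_eq_zero] at this
  let ρ₀ : L →* Module.End (ZMod p) E := ρ.comp (inclusion le_sup_left)
  have ρL : ∀ g : ↥(L ⊔ Q), ∃ g₀ : L, ρ g = ρ₀ g₀ := fun g => by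
    obtain ⟨x, hx, y, hy, e⟩ := (mem_sup_of_le_normalizer hLQ).1 g.2
    refine ⟨⟨x, hx⟩, ?_⟩
    rw [show g = ⟨x, mem_sup_left hx⟩ * ⟨y, mem_sup_right hy⟩ from Subtype.ext e.symm, map_mul,
      ρQ ⟨y, _⟩ hy, mul_one]
    rfl
  have nt : (1 : Module.End (ZMod p) E) ≠ 0 := fun e => hWD fun w hw =>
    (s.ker w hw).1 (congrArg (fun f : Module.End (ZMod p) E => f (π w)) e)
  have irr : ∀ S : Submodule (ZMod p) E, (∀ g, ∀ v ∈ S, ρ₀ g v ∈ S) → S = ⊥ ∨ S = ⊤ := fun S hS => by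
    rcases key (s.grp S) (s.le_grp S) (s.grp_le S) (le_normalizer_of_cj_le (by
      rintro g hg _ ⟨x, ⟨a1, a2⟩, rfl⟩
      refine ⟨conj_mem_of_mem_normalizer (hW hg) a1, ?_⟩
      obtain ⟨g₀, e⟩ := ρL ⟨g, hg⟩
      have := hS g₀ _ a2
      rwa [← e, ← s.conj _ _ a1] at this)) with h | h
    · exact Or.inl (le_bot_iff.1 (s.grp_le_iff.1 (h.trans s.grp_bot.symm).le))
    · exact Or.inr (top_le_iff.1 (s.grp_le_iff.1 (s.grp_top.trans h.symm).le))
  obtain ⟨x, xL, xM⟩ := SetLike.exists_of_lt hu.lt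
  have bL : x * a * x⁻¹ ∈ L := mul_mem (mul_mem xL aL) (inv_mem xL)
  have qa : (ρ₀ ⟨a, aL⟩ - 1) * (ρ₀ ⟨a, aL⟩ - 1) = 0 := by
    ext v
    obtain ⟨w, hw, rfl⟩ := s.surj v
    have c1 := cW ⟨a, mem_sup_left aL⟩ w hw
    have c2 := cW ⟨a, mem_sup_left aL⟩ _ c1
    have := (s.ker _ c2).2 (hWZ ⟨c2, hq (commutatorElement_mem_comm.1 (commutator_mem_commutator
      (commutatorElement_mem_comm.1 (commutator_mem_commutator (hEV (hWE hw)) (mem_zpowers a)))
      (mem_zpowers a)))⟩)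
    rwa [pc _ _ c1, pc _ _ hw] at this
  obtain ⟨L', φ, α, β, hφ, hα, hβ, hαβ, hρ, haα⟩ := ml h2 ρ₀ (a := ⟨a, aL⟩) (b := ⟨_, bL⟩)
    (H9.closure_pair_eq_top (by
      rw [← hu.sup_cj hg xL xM, cj_zpowers, zpowers_eq_closure, zpowers_eq_closure,
        ← Subgroup.closure_union]
      rfl) aL bL) qa
    (by
      have e : ρ₀ ⟨_, bL⟩ - 1 = ρ₀ ⟨x, xL⟩ * (ρ₀ ⟨a, aL⟩ - 1) * ρ₀ ⟨x, xL⟩⁻¹ := by
        rw [mul_sub, sub_mul, mul_one, ← map_mul, ← map_mul, ← map_mul, mul_inv_cancel, map_one]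
        rfl
      rw [e, mul_assoc, mul_assoc, mul_assoc, ← mul_assoc (ρ₀ _⁻¹), ← map_mul, inv_mul_cancel,
        map_one, one_mul, ← mul_assoc (_ - 1), qa, zero_mul, mul_zero])
    (by
      by_contra! hc
      refine w4 (commutator_le.2 fun w hw g hg => commutatorElement_mem_comm.1 ?_)
      have : pResidualOf p (L ⊔ Q) ≤ ρ.ker.map (L ⊔ Q).subtype :=
        pResidualOf_le_of_pow_mem fun g hg => by
          obtain ⟨g₀, e⟩ := ρL ⟨g, hg⟩
          obtain ⟨k, hk⟩ := hc g₀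
          exact ⟨k, ⟨g, hg⟩ ^ p ^ k, by rw [SetLike.mem_coe, MonoidHom.mem_ker, map_pow, e, hk], rfl⟩
      obtain ⟨g, e, rfl⟩ := this hg
      refine (s.ker _ (cW g w hw)).1 ?_
      rw [pc g w hw, MonoidHom.mem_ker.1 e, sub_self, LinearMap.zero_apply])
    irr (by
      obtain ⟨k, hk⟩ := isPGroup_iff_mem.1 hap a (mem_zpowers a)
      exact ⟨k, Subtype.ext hk⟩)
  -- the stabilizer of the image of `α` lies in `M`
  have hB : ∀ g : L, (∀ v ∈ LinearMap.range α, ρ₀ g v ∈ LinearMap.range α) → (g : G) ∈ M := by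
    let B : Subgroup L := subOf
      { carrier := {g | ∀ v ∈ LinearMap.range α, ρ₀ g v ∈ LinearMap.range α}
        mul_mem' := fun a b v hv => by rw [map_mul]; exact a _ (b v hv)
        one_mem' := fun v hv => by rwa [map_one] }
    have α0 : α ≠ 0 := fun e => nt (by rw [← hαβ, e, zero_mul, mul_zero, add_zero])
    refine fun g hg => hu.max (B.map L.subtype) (zpowers_le.2 ⟨⟨a, aL⟩, ?_, rfl⟩)
      (lt_of_le_of_ne (map_subtype_le B) fun e => ?_) ⟨g, hg, rfl⟩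
    · rintro _ ⟨v, rfl⟩
      exact ⟨v, (sub_eq_zero.1 (congrArg (fun f : Module.End (ZMod p) E => f v) haα)).symm⟩
    · rcases irr (LinearMap.range α) (fun g => by
        obtain ⟨g', h1, h2⟩ := e.ge g.2
        rwa [← show g' = g from Subtype.ext h2]) with h | h
      · exact α0 (LinearMap.range_eq_bot.1 h)
      · refine α0 (LinearMap.ext fun v => ?_)
        obtain ⟨v, rfl⟩ := LinearMap.range_eq_top.1 h v
        exact congrArg (fun f : Module.End (ZMod p) E => f v) hα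
  have hB' : ∀ l : L', (φ l : M₂ (ZMod p)) 1 0 = 0 → ((l : L) : G) ∈ M := fun l hl => hB l (by
    rintro _ ⟨v, rfl⟩
    refine ⟨(φ l : M₂ (ZMod p)) 0 0 • β (α v), ?_⟩
    have : α (α v) = 0 := congrArg (fun f : Module.End (ZMod p) E => f v) hα
    rw [hρ, hl]
    simp [this])
  -- `Y` meets the chief factor
  have hYW : ¬ Y ⊓ W ≤ D := fun h => by
    obtain ⟨z₀, hz₀⟩ := hφ (-1)
    obtain ⟨k, hk⟩ := exists_pow_coprime (p := p) (isOfFinOrder_of_finite ((z₀ : L) : G))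
    have e1 : ρ₀ (z₀ ^ p ^ k : L') = -1 := by
      rw [hρ, map_pow, hz₀, ((hp.out.odd_of_ne_two h2).pow).neg_one_pow, ← hαβ]
      simp [add_comm]
    set z : L := ((z₀ ^ p ^ k : L') : L) with hz
    have zP : zpowers (z : G) ≤ pResidualOf p (L ⊔ Q) :=
      zpowers_le.2 (mem_pResidualOf (mem_sup_left z.2) hk)
    have e2 : ⁅nclIn Y L, zpowers (z : G)⁆ ≤ D := by
      refine H1.commutator_iSup_le (fun g => ((cj_le_nclIn Y g.2).trans
        (hEQ.trans le_sup_right)).trans hD) fun g => ?_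
      have n1 : (z : G) ∈ 𝐍 (cj (g : G) Y) := by
        rw [← cj_normalizer, mem_cj]
        refine hM (hB (g⁻¹ * z * g) fun v hv => ?_)
        rw [map_mul, map_mul, e1, mul_neg_one, neg_mul, ← map_mul, inv_mul_cancel, map_one]
        exact neg_mem hv
      refine (le_inf (commutator_le_of_le_normalizer (zpowers_le.2 n1))
        ((commutator_mono (cj_le_nclIn Y g.2) zP).trans w3)).trans ?_
      rw [← cj_eq_self (hW (mem_sup_left g.2)), ← cj_inf, ← cj_eq_self (hD (mem_sup_left g.2))]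
      exact cj_mono _ h
    refine hWD fun w hw => (s.ker w hw).1 ?_
    have e3 := (s.ker _ (cW ⟨z, mem_sup_left z.2⟩ w hw)).2 (commutatorElement_mem_comm.1
      (e2 (commutator_mem_commutator (hWE hw) (mem_zpowers _))))
    rw [pc _ _ hw, show ρ ⟨z, mem_sup_left z.2⟩ = -1 from e1, ← neg_add', LinearMap.neg_apply,
      neg_eq_zero, LinearMap.add_apply, Module.End.one_apply, ← two_smul (ZMod p)] at e3
    exact (smul_eq_zero.1 e3).resolve_left two
  -- the Borel subgroup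
  obtain ⟨U₀, hU₀⟩ := exists_isSylowIn p ((UU p).comap φ)
  have hker : ∀ k ∈ (UU p).comap φ, ∃ u ∈ U₀, φ u = φ k := fun k hk => by
    rw [← hU₀.sup_eq_of_pow_mem (K := φ.ker) (fun x hx => by
        rw [mem_comap, MonoidHom.mem_ker.1 hx]; exact one_mem _) le_normalizer_of_normal
      (by
        rintro x ⟨c, e⟩
        exact ⟨1, by rw [MonoidHom.mem_ker, map_pow, e, up_pow]; simp [up_zero]⟩),
      mem_sup_of_le_normalizer' le_normalizer_of_normal] at hk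
    obtain ⟨κ, h1, u, h2, rfl⟩ := hk
    exact ⟨u, h2, by rw [map_mul, MonoidHom.mem_ker.1 h1, one_mul]⟩
  have hup : ∀ c, ∃ u ∈ U₀, φ u = up p c := fun c => by
    obtain ⟨k, hk⟩ := hφ (up p c)
    exact hk ▸ hker k ⟨c, hk⟩
  have hUM : ∀ u ∈ U₀, ((u : L) : G) ∈ M := fun u hu => hB' u (by
    obtain ⟨c, e⟩ := hU₀.le hu
    rw [e]; rfl)
  obtain ⟨l, hl⟩ := IsCyclic.exists_generator (α := (ZMod p)ˣ)
  obtain ⟨t, ht, htl⟩ : ∃ t ∈ 𝐍 U₀, φ t = dgs l := by
    obtain ⟨t₀, h₀⟩ := hφ (dgs l)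
    obtain ⟨k, hk, n, hn, rfl⟩ := hU₀.frattini (g := t₀) (mem_normalizer_of_cj_le (by
      rintro _ ⟨x, ⟨c, e⟩, rfl⟩
      refine ⟨l * l * c, ?_⟩
      change φ (t₀ * x * t₀⁻¹) = _
      rw [map_mul, map_mul, h₀, e, dgs_mul_up, map_inv, h₀, mul_inv_cancel_right]))
    obtain ⟨u, h1, h2⟩ := hker k hk
    exact ⟨u * n, mul_mem (le_normalizer h1) hn, by rw [map_mul, h2, ← map_mul, h₀]⟩
  obtain ⟨y, y1, y2, y3, y4⟩ : ∃ y ∈ Y, y ∈ W ∧ π y ≠ 0 ∧ α (π y) = 0 := by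
    obtain ⟨y, ⟨y1, y2⟩, y3⟩ := SetLike.not_le_iff_exists.1 hYW
    by_cases e : α (π y) = 0
    · exact ⟨y, y1, y2, fun h => y3 ((s.ker y y2).1 h), e⟩
    · obtain ⟨u, h1, h2⟩ := hup 1
      have e1 : π ⁅((u : L) : G), y⁆ = α (π y) := by
        have : ρ₀ u - 1 = α := by
          rw [hρ, h2, ← hαβ]; simp
        rw [← this]
        exact pc ⟨_, mem_sup_left (u : L).2⟩ y y2
      exact ⟨_, mul_mem (conj_mem_of_mem_normalizer (hM (hUM u h1)) y1) (inv_mem y1),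
        cW ⟨_, mem_sup_left (u : L).2⟩ y y2, e1 ▸ e,
        e1 ▸ congrArg (fun f : Module.End (ZMod p) E => f (π y)) hα⟩
  have f1 : α (β (π y)) = π y := by
    simpa [y4] using congrArg (fun f : Module.End (ZMod p) E => f (π y)) hαβ
  have f2 : β (β (π y)) = 0 := congrArg (fun f : Module.End (ZMod p) E => f (π y)) hβ
  let ι : (Fin 2 → ZMod p) →ₗ[ZMod p] E :=
    (LinearMap.proj 0).smulRight (π y) + (LinearMap.proj 1).smulRight (β (π y))
  have hι : ∀ v, ι v = v 0 • π y + v 1 • β (π y) := fun _ => rfl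
  obtain ⟨r, hr⟩ := ι.exists_leftInverse_of_injective (LinearMap.ker_eq_bot'.2 fun v hv => by
    have e1 := congrArg α hv
    rw [hι] at hv
    rw [hι, map_add, map_smul, map_smul, y4, f1, smul_zero, zero_add, map_zero] at e1
    have e2 := (smul_eq_zero.1 e1).resolve_right y3
    rw [e2, zero_smul, add_zero] at hv
    ext i; fin_cases i
    · exact (smul_eq_zero.1 hv).resolve_right y3
    · exact e2)
  have hr' : ∀ v, r (ι v) = v := fun v => congrArg (fun f : _ →ₗ[ZMod p] _ => f v) hr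
  have act : ∀ (g : ↥(L ⊔ Q)) (m : M₂ (ZMod p)), (∀ v, ρ g (ι v) = ι (m *ᵥ v)) →
      Act (s.grp (LinearMap.range ι)) (fun x => r (π x)) g m := by
    rintro g m h w ⟨a1, v, a2⟩
    have e := s.conj g w a1
    rw [← a2, h] at e
    exact ⟨⟨conj_mem_of_mem_normalizer (hW g.2) a1, _, e.symm⟩, by simp only [e, ← a2, hr']⟩
  have actl : ∀ l : L', Act (s.grp (LinearMap.range ι)) (fun x => r (π x)) ((l : L) : G) (φ l) :=
    fun l => act ⟨_, mem_sup_left (l : L).2⟩ _ fun v => by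
      change ρ₀ l _ = _
      rw [hρ, hι, hι]
      simp [y4, f1, f2, mulVec, dotProduct, Fin.sum_univ_two, add_smul, smul_smul, mul_comm]
      abel
  have actq : ∀ q ∈ Q, Act (s.grp (LinearMap.range ι)) (fun x => r (π x)) q 1 := fun q hq =>
    act ⟨q, mem_sup_right hq⟩ _ fun v => by rw [ρQ _ hq, one_mulVec]; rfl
  let j : L' →* G := L.subtype.comp L'.subtype
  have hj : U₀.map j ≤ M := by rintro _ ⟨u, h1, rfl⟩; exact hUM u h1
  have hjQ := (hj.trans hu.lt.le).trans hLQ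
  have tM : j t ∈ M := hB' t (by rw [htl]; rfl)
  have sj : ∀ v, ∃ w ∈ s.grp (LinearMap.range ι), r (π w) = v := fun v => by
    obtain ⟨w, hw, e⟩ := s.surj (ι v)
    exact ⟨w, ⟨hw, v, e.symm⟩, by rw [e, hr']⟩
  have ey : r (π y) = ![1, 0] := by rw [← hr' ![1, 0], hι]; simp
  refine ⟨U₀.map j ⊔ Q, s.grp (LinearMap.range ι), fun x => r (π x), j t, l,
    ⟨isPGroup_sup_of_le_normalizer (hU₀.isPGroup.map j) hQ hjQ,
      ((s.grp_le _).trans hWQ).trans le_sup_right, hYQ.trans le_sup_right,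
      fun x hx y hy => by simp only [s.add x hx.1 y hy.1, map_add], sj, fun u hu => ?_, fun c => ?_,
      ?_, by have := actl t; rwa [htl] at this, ?_, hM tM,
      ⟨y, y1, ⟨y2, ![1, 0], by rw [hι]; simp⟩, by simp [ey], by simp [ey]⟩⟩,
    lt_of_le_of_ne le_sup_right fun e => ?_, sup_le_sup_right hj Q, tM⟩
  · obtain ⟨_, ⟨u, h1, rfl⟩, q, h2, rfl⟩ := (mem_sup_of_le_normalizer hjQ).1 hu
    obtain ⟨c, e⟩ := hU₀.le h1
    exact ⟨c, by have := (actl u).mul (actq q h2); rwa [e, mul_one] at this⟩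
  · obtain ⟨u, h1, e⟩ := hup c
    exact ⟨j u, mem_sup_left (mem_map_of_mem j h1), by have := actl u; rwa [e] at this⟩
  · refine le_normalizer_sup (A := zpowers (j t)) (zpowers_le.2 ?_)
      (zpowers_le.2 (hLQ (hu.lt.le tM))) (mem_zpowers _)
    exact le_normalizer_map j (mem_map_of_mem j ht)
  · rw [orderOf_eq_card_of_forall_mem_zpowers hl, Nat.card_eq_fintype_card, ZMod.card_units]
  · obtain ⟨u, h1, e1⟩ := hup 1
    have := (actl u).uniq sj (actq _ (e.ge (mem_sup_left (mem_map_of_mem j h1))))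
    rw [e1] at this
    simpa using congrFun (congrFun this 0) 1

end H28.ZF
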